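import Mathlib
import Cfsg.Agent.Lib.TwoFus.StronglyEmbedded
import Cfsg.Agent.Lib.Invol.Dihedral
import Cfsg.Agent.S1226

/-!
Groups in which centralizers of involutions are elementary abelian 2-groups and a Sylow 2-subgroup
is neither cyclic nor normal: the structure of the Sylow normalizer and its action on the cosets.
-/

set_option autoImplicit false

namespace Cfsg.Lib.TwoFus.ElemCent

open Cfsg.Lib.Invol

variable {G : Type*} [Group G] [Finite G]

/-- The hypotheses. -/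
structure Hyp (T : Sylow 2 G) : Prop where
  ncyc : ¬ IsCyclic (T : Subgroup G)
  nnormal : ¬ (T : Subgroup G).Normal
  cent : ∀ t : G, orderOf t = 2 → IsMulCommutative (Subgroup.centralizer ({t} : Set G)) ∧
    ∀ c ∈ Subgroup.centralizer ({t} : Set G), c ^ 2 = 1

/-- The normalizer of the Sylow subgroup. -/
abbrev Nz (T : Sylow 2 G) : Subgroup G := Subgroup.normalizer ((T : Subgroup G) : Set G)

/-- The two point stabilizer. -/
def Dl (T : Sylow 2 G) (u : G) : Subgroup G :=
  (Nz T) ⊓ (Nz T).map (MulAut.conj u).toMonoidHom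

variable {T : Sylow 2 G}

theorem se (h : Hyp T) : Cfsg.IsStronglyEmbedded (Nz T) :=
  Cfsg.Agent.S1226.result T h.ncyc h.nnormal h.cent

theorem sq_eq_one_of_commute (h : Hyp T) {t c : G} (ht : orderOf t = 2) (hc : Commute c t) : c ^ 2 = 1 :=
  (h.cent t ht).2 c (Subgroup.mem_centralizer_singleton_iff.2 hc.eq)

theorem eq_one_of_odd (h : Hyp T) {t c : G} (ht : orderOf t = 2) (hc : Commute c t)
    (ho : Odd (orderOf c)) : c = 1 := by
  rcases (Nat.dvd_prime Nat.prime_two).1 (orderOf_dvd_of_pow_eq_one (sq_eq_one_of_commute h ht hc)) with h1 | h1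
  · exact orderOf_eq_one_iff.1 h1
  · rw [h1] at ho; exact absurd ho (by decide)

theorem cent_pgroup (h : Hyp T) {t : G} (ht : orderOf t = 2) :
    IsPGroup 2 ↥(Subgroup.centralizer ({t} : Set G)) :=
  fun c => ⟨1, by rw [pow_one]; exact Subtype.ext ((h.cent t ht).2 c c.2)⟩

theorem exists_central (h : Hyp T) :
    ∃ z : G, orderOf z = 2 ∧ z ∈ (T : Subgroup G) ∧ (T : Subgroup G) = Subgroup.centralizer ({z} : Set G) := by
  have : Fact (Nat.Prime 2) := ⟨Nat.prime_two⟩
  have hne : Nontrivial ↥(T : Subgroup G) := by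
    by_contra h1
    rw [not_nontrivial_iff_subsingleton] at h1
    exact h.ncyc isCyclic_of_subsingleton
  haveI := T.isPGroup'.center_nontrivial
  obtain ⟨u, hu⟩ := exists_prime_orderOf_dvd_card' (G := Subgroup.center ↥(T : Subgroup G)) 2
    ((T.isPGroup'.to_subgroup (Subgroup.center _)).card_eq_or_dvd.resolve_left Finite.one_lt_card.ne')
  have hz : orderOf (((u : ↥(T : Subgroup G)) : G)) = 2 := by
    rw [Subgroup.orderOf_coe, Subgroup.orderOf_coe]; exact hu
  refine ⟨_, hz, (u : ↥(T : Subgroup G)).2, (T.is_maximal' (cent_pgroup h hz) fun y hy => ?_).symm⟩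
  exact Subgroup.mem_centralizer_singleton_iff.2 (congrArg Subtype.val (Subgroup.mem_center_iff.1 u.2 ⟨y, hy⟩))

theorem sq_T (h : Hyp T) {t : G} (ht : t ∈ (T : Subgroup G)) : t ^ 2 = 1 := by
  obtain ⟨z, hz, -, he⟩ := exists_central h
  exact (h.cent z hz).2 t (he ▸ ht)

theorem orderOf_T (h : Hyp T) {t : G} (ht : t ∈ (T : Subgroup G)) (h1 : t ≠ 1) : orderOf t = 2 :=
  orderOf_eq_prime (sq_T h ht) h1

theorem commute_T (h : Hyp T) {s t : G} (hs : s ∈ (T : Subgroup G)) (ht : t ∈ (T : Subgroup G)) :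
    Commute s t := by
  obtain ⟨z, hz, -, he⟩ := exists_central h
  exact congrArg Subtype.val ((h.cent z hz).1.is_comm.comm ⟨s, he ▸ hs⟩ ⟨t, he ▸ ht⟩)

theorem cent_eq (h : Hyp T) {t : G} (ht : t ∈ (T : Subgroup G)) (h1 : t ≠ 1) :
    Subgroup.centralizer ({t} : Set G) = T :=
  T.is_maximal' (cent_pgroup h (orderOf_T h ht h1)) fun _ hy =>
    Subgroup.mem_centralizer_singleton_iff.2 (commute_T h hy ht).eq

theorem mem_T_of_invol (h : Hyp T) {s : G} (hs : s ∈ Nz T) (ho : orderOf s = 2) : s ∈ (T : Subgroup G) := by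
  have : Fact (Nat.Prime 2) := ⟨Nat.prime_two⟩
  have hp : IsPGroup 2 ↥((T : Subgroup G) ⊔ Subgroup.zpowers s) :=
    IsPGroup.to_sup_of_normal_left' T.isPGroup'
      (IsPGroup.of_card (n := 1) (by rw [Nat.card_zpowers, ho, pow_one])) (Subgroup.zpowers_le.2 hs)
  rw [← T.is_maximal' hp le_sup_left]
  exact Subgroup.mem_sup_right (Subgroup.mem_zpowers s)

theorem mem_Dl {u x : G} (hu : orderOf u = 2) : x ∈ Dl T u ↔ x ∈ (Nz T) ∧ u * x * u ∈ Nz T := by
  constructor
  · rintro ⟨h1, y, hy, rfl⟩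
    refine ⟨h1, ?_⟩
    have : u * (u * y * u⁻¹) * u = y := by
      rw [inv_of_orderTwo hu, show u * (u * y * u) * u = u * u * y * (u * u) by group,
        mul_self_of_orderTwo hu, one_mul, mul_one]
    have h2 : u * ((MulAut.conj u).toMonoidHom y) * u = y := this
    rw [h2]; exact hy
  · rintro ⟨h1, h2⟩
    refine ⟨h1, _, h2, ?_⟩
    show u * (u * x * u) * u⁻¹ = x
    rw [inv_of_orderTwo hu, show u * (u * x * u) * u = u * u * x * (u * u) by group,
      mul_self_of_orderTwo hu, one_mul, mul_one]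

theorem odd_Dl (h : Hyp T) {u : G} (huH : u ∉ Nz T) : Odd (Nat.card (Dl T u)) :=
  (se h).2.2 u huH

theorem odd_orderOf_Dl (h : Hyp T) {u x : G} (huH : u ∉ Nz T) (hx : x ∈ Dl T u) : Odd (orderOf x) :=
  (odd_Dl h huH).of_dvd_nat (Subgroup.orderOf_dvd_natCard _ hx)

/-- An involution commuting with no nontrivial element of a finite group it normalizes inverts it. -/
theorem inverts_of_free {K : Type*} [Group K] [Finite K] (A : Subgroup K) (u : K) (hu : orderOf u = 2)
    (hinv : ∀ a ∈ A, u * a * u ∈ A) (hfree : ∀ a ∈ A, u * a * u = a → a = 1) :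
    ∀ a ∈ A, u * a * u = a⁻¹ := by
  have huu : u * u = 1 := mul_self_of_orderTwo hu
  let f : A → A := fun a => ⟨(a : K)⁻¹ * (u * a * u), A.mul_mem (A.inv_mem a.2) (hinv a a.2)⟩
  have hf : Function.Injective f := by
    intro a b hab
    have h1 : (a : K)⁻¹ * (u * a * u) = (b : K)⁻¹ * (u * b * u) := congrArg Subtype.val hab
    have h2 : u * ((b : K) * (a : K)⁻¹) * u = (b : K) * (a : K)⁻¹ := by
      have h3 : u * (a : K) * u = a * ((b : K)⁻¹ * (u * b * u)) := by rw [← h1]; group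
      calc u * ((b : K) * (a : K)⁻¹) * u = (u * b * u) * (u * (a : K) * u)⁻¹ := by
            rw [mul_inv_rev, mul_inv_rev, inv_of_orderTwo hu,
              show u * b * u * (u * ((a : K)⁻¹ * u)) = u * b * (u * u) * (a : K)⁻¹ * u by group, huu, mul_one]
            group
        _ = _ := by rw [h3]; group
    exact Subtype.ext (mul_inv_eq_one.1 (hfree _ (A.mul_mem b.2 (A.inv_mem a.2)) h2)).symm
  intro a ha
  obtain ⟨b, hb⟩ := (Finite.injective_iff_surjective.1 hf) ⟨a, ha⟩
  have h1 : (b : K)⁻¹ * (u * b * u) = a := congrArg Subtype.val hb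
  rw [← h1, show u * ((b : K)⁻¹ * (u * b * u)) * u = u * (b : K)⁻¹ * u * b * (u * u) by group, huu, mul_one,
    mul_inv_rev, mul_inv_rev, inv_inv]
  simp only [mul_inv_rev, inv_inv, inv_of_orderTwo hu, mul_assoc]

theorem inverts (h : Hyp T) {u : G} (hu : orderOf u = 2) (huH : u ∉ Nz T) :
    ∀ d ∈ Dl T u, u * d * u = d⁻¹ := by
  refine inverts_of_free _ u hu (fun a ha => ?_) fun a ha hc => ?_
  · rw [mem_Dl hu] at ha ⊢
    refine ⟨ha.2, ?_⟩
    rw [show u * (u * a * u) * u = u * u * a * (u * u) by group, mul_self_of_orderTwo hu, one_mul, mul_one]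
    exact ha.1
  · refine eq_one_of_odd h hu ?_ (odd_orderOf_Dl h huH ha)
    show a * u = u * a
    calc a * u = u * a * u * u := by rw [hc]
      _ = u * a := by rw [mul_assoc, mul_self_of_orderTwo hu, mul_one]

theorem commute_Dl (h : Hyp T) {u : G} (hu : orderOf u = 2) (huH : u ∉ Nz T) {a b : G}
    (ha : a ∈ Dl T u) (hb : b ∈ Dl T u) : Commute a b := by
  have h1 := inverts h hu huH _ ((Dl T u).mul_mem ha hb)
  rw [show u * (a * b) * u = u * a * (u * u) * b * u by rw [mul_self_of_orderTwo hu]; group,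
    show u * a * (u * u) * b * u = (u * a * u) * (u * b * u) by group,
    inverts h hu huH a ha, inverts h hu huH b hb, mul_inv_rev] at h1
  exact (Commute.inv_inv_iff).1 h1

theorem exists_s (h : Hyp T) : ∃ s ∈ (T : Subgroup G), orderOf s = 2 :=
  let ⟨z, hz, hzT, _⟩ := exists_central h
  ⟨z, hzT, hz⟩

/-- `H = D T`. -/
theorem exists_decomp (h : Hyp T) {u : G} (hu : orderOf u = 2) (huH : u ∉ Nz T) {n : G} (hn : n ∈ Nz T) :
    ∃ e ∈ Dl T u, ∃ t ∈ (T : Subgroup G), n = e * t := by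
  obtain ⟨s, hsT, hs⟩ := exists_s h
  have hsN : s ∈ Nz T := Subgroup.le_normalizer hsT
  obtain ⟨d, hd, hds⟩ := se_transitive (se h) hu huH hsN hs
    ((Nz T).mul_mem ((Nz T).mul_mem hn hsN) ((Nz T).inv_mem hn)) (orderTwo_conj n hs)
  refine ⟨d, hd, d⁻¹ * n, ?_, (mul_inv_cancel_left d n).symm⟩
  rw [← cent_eq h hsT (fun h1 => by simp [h1] at hs), Subgroup.mem_centralizer_singleton_iff]
  calc d⁻¹ * n * s = d⁻¹ * (n * s * n⁻¹) * n := by group
    _ = d⁻¹ * (d * s * d⁻¹) * n := by rw [hds]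
    _ = s * (d⁻¹ * n) := by group

theorem Dl_inf_T (h : Hyp T) {u x : G} (huH : u ∉ Nz T) (hx : x ∈ Dl T u) (hxT : x ∈ (T : Subgroup G)) :
    x = 1 := by
  by_contra h1
  have := odd_orderOf_Dl h huH hx
  rw [orderOf_T h hxT h1] at this
  exact absurd this (by decide)

theorem isComplement (h : Hyp T) {u : G} (hu : orderOf u = 2) (huH : u ∉ Nz T) :
    Subgroup.IsComplement' ((Dl T u).subgroupOf (Nz T)) ((T : Subgroup G).subgroupOf (Nz T)) := by
  refine Subgroup.isComplement'_of_disjoint_and_mul_eq_univ ?_ ?_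
  · rw [disjoint_iff, eq_bot_iff]
    rintro ⟨x, hx⟩ ⟨h1, h2⟩
    exact Subgroup.mem_bot.2 (Subtype.ext (Dl_inf_T h huH h1 h2))
  · refine Set.eq_univ_of_forall fun ⟨n, hn⟩ => ?_
    obtain ⟨e, he, t, ht, rfl⟩ := exists_decomp h hu huH hn
    exact ⟨⟨e, he.1⟩, he, ⟨t, Subgroup.le_normalizer ht⟩, ht, rfl⟩

theorem card_Dl (h : Hyp T) {u : G} (hu : orderOf u = 2) (huH : u ∉ Nz T) :
    Nat.card (Dl T u) + 1 = Nat.card T := by
  classical
  obtain ⟨s, hsT, hs⟩ := exists_s h
  have hsN : s ∈ Nz T := Subgroup.le_normalizer hsT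
  let f : Dl T u → {t : (T : Subgroup G) // t ≠ 1} := fun d =>
    ⟨⟨(d : G) * s * (d : G)⁻¹, mem_T_of_invol h ((Nz T).mul_mem ((Nz T).mul_mem d.2.1 hsN) ((Nz T).inv_mem d.2.1))
      (orderTwo_conj _ hs)⟩, fun e => by
      have h1 : (d : G) * s * (d : G)⁻¹ = 1 := congrArg Subtype.val e
      rw [conj_eq_one_iff] at h1
      simp [h1] at hs⟩
  have hf : Function.Bijective f := by
    constructor
    · intro a b hab
      have h1 : (a : G) * s * (a : G)⁻¹ = b * s * (b : G)⁻¹ := congrArg (fun x => (x.1 : G)) hab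
      have h2 : ((b⁻¹ * a : Dl T u) : G) = 1 := by
        refine eq_one_of_odd h hs ?_ (odd_orderOf_Dl h huH (b⁻¹ * a).2)
        show (b : G)⁻¹ * a * s = s * ((b : G)⁻¹ * a)
        calc (b : G)⁻¹ * a * s = (b : G)⁻¹ * ((a : G) * s * (a : G)⁻¹) * a := by group
          _ = (b : G)⁻¹ * ((b : G) * s * (b : G)⁻¹) * a := by rw [h1]
          _ = _ := by group
      exact (inv_mul_eq_one.1 (Subtype.ext h2 : b⁻¹ * a = 1)).symm
    · rintro ⟨⟨t, ht⟩, ht1⟩
      have ht1' : t ≠ 1 := fun e => ht1 (Subtype.ext e)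
      obtain ⟨d, hd, hdt⟩ := se_transitive (se h) hu huH hsN hs (Subgroup.le_normalizer ht) (orderOf_T h ht ht1')
      exact ⟨⟨d, hd⟩, Subtype.ext (Subtype.ext hdt)⟩
  haveI := Fintype.ofFinite (T : Subgroup G)
  rw [Nat.card_congr (Equiv.ofBijective f hf), Nat.card_eq_fintype_card, Fintype.card_subtype_compl,
    Fintype.card_subtype_eq, Nat.card_eq_fintype_card]
  have := Fintype.card_pos (α := (T : Subgroup G))
  omega

theorem card_normalizer (h : Hyp T) {u : G} (hu : orderOf u = 2) (huH : u ∉ Nz T) :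
    Nat.card (Nz T) = Nat.card T * (Nat.card T - 1) := by
  have h1 := (isComplement h hu huH).card_mul
  rw [Nat.card_congr (Subgroup.subgroupOfEquivOfLe (show Dl T u ≤ Nz T from inf_le_left)).toEquiv,
    Nat.card_congr (Subgroup.subgroupOfEquivOfLe Subgroup.le_normalizer).toEquiv] at h1
  rw [← h1, ← card_Dl h hu huH, Nat.add_sub_cancel, mul_comm]

theorem four_le (h : Hyp T) : 4 ≤ Nat.card T := by
  have : Fact (Nat.Prime 2) := ⟨Nat.prime_two⟩
  obtain ⟨n, hn⟩ := IsPGroup.iff_card.1 T.isPGroup'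
  rcases n with _ | _ | n
  · refine absurd ?_ h.ncyc
    haveI : Subsingleton (T : Subgroup G) := (Nat.card_eq_one_iff_unique.1 (by simpa using hn)).1
    exact isCyclic_of_subsingleton
  · exact absurd (isCyclic_of_prime_card (p := 2) (by simpa using hn)) h.ncyc
  · calc 4 = 2 ^ 2 := rfl
      _ ≤ 2 ^ (n + 2) := Nat.pow_le_pow_right (by norm_num) (by omega)
      _ = _ := hn.symm

theorem exists_ne_one (h : Hyp T) {u : G} (hu : orderOf u = 2) (huH : u ∉ Nz T) :
    ∃ d ∈ Dl T u, d ≠ 1 := by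
  by_contra hno
  push_neg at hno
  have h1 : Dl T u = ⊥ := (Subgroup.eq_bot_iff_forall _).2 hno
  have h2 := card_Dl h hu huH
  rw [h1, Subgroup.card_bot] at h2
  have := four_le h
  omega

/-- `D` is the centralizer in `H` of each of its nontrivial elements. -/
theorem cent_N (h : Hyp T) {u : G} (hu : orderOf u = 2) (huH : u ∉ Nz T) {d n : G} (hd : d ∈ Dl T u)
    (hd1 : d ≠ 1) (hn : n ∈ Nz T) (hc : Commute n d) : n ∈ Dl T u := by
  obtain ⟨e, he, t, ht, rfl⟩ := exists_decomp h hu huH hn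
  have h1 : Commute t d := by
    have := (commute_Dl h hu huH he hd).inv_left.mul_left hc
    rwa [inv_mul_cancel_left] at this
  have ht1 : t = 1 := by
    by_contra ht1
    exact hd1 (eq_one_of_odd h (orderOf_T h ht ht1) h1.symm (odd_orderOf_Dl h huH hd))
  rw [ht1, mul_one]; exact he

theorem normalizer_inf (h : Hyp T) {u : G} (hu : orderOf u = 2) (huH : u ∉ Nz T) {g : G}
    (hg : g ∈ Nz T) (hgD : g ∈ Subgroup.normalizer (Dl T u : Set G)) : g ∈ Dl T u := by
  obtain ⟨d, hd, hd1⟩ := exists_ne_one h hu huH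
  obtain ⟨e, he, t, ht, rfl⟩ := exists_decomp h hu huH hg
  have htD : t ∈ Subgroup.normalizer (Dl T u : Set G) := by
    have := Subgroup.mul_mem _ (Subgroup.inv_mem _ (Subgroup.le_normalizer he)) hgD
    rwa [inv_mul_cancel_left] at this
  have h1 : t * d * t⁻¹ * d⁻¹ = 1 := by
    refine Dl_inf_T h huH ((Dl T u).mul_mem ((Subgroup.mem_normalizer_iff.1 htD d).1 hd) ((Dl T u).inv_mem hd)) ?_
    rw [show t * d * t⁻¹ * d⁻¹ = t * (d * t⁻¹ * d⁻¹) by group]
    exact (T : Subgroup G).mul_mem ht ((Subgroup.mem_normalizer_iff.1 hd.1 _).1 ((T : Subgroup G).inv_mem ht))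
  exact cent_N h hu huH hd hd1 hg ((commute_Dl h hu huH he hd).mul_left (by
    show t * d = d * t
    calc t * d = t * d * t⁻¹ * d⁻¹ * (d * t) := by group
      _ = d * t := by rw [h1, one_mul]))

/-- Every coset other than `H` contains an involution. -/
theorem exists_invol (h : Hyp T) {x : G} (hx : x ∉ Nz T) :
    ∃ v : G, orderOf v = 2 ∧ v ∉ (Nz T) ∧ v⁻¹ * x ∈ Nz T := by
  have hc := se_card_coset (se h) (QuotientGroup.mk x : G ⧸ Nz T)
  obtain ⟨s, hsT, hs⟩ := exists_s h
  have hne : Nonempty {t : G // orderOf t = 2 ∧ t ∈ Nz T} := ⟨⟨s, hs, Subgroup.le_normalizer hsT⟩⟩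
  have hpos : 0 < Nat.card {i : G // orderOf i = 2 ∧ (QuotientGroup.mk i : G ⧸ Nz T) = QuotientGroup.mk x} := by
    rw [hc]; exact Nat.card_pos
  obtain ⟨⟨⟨v, hv, hvx⟩⟩, -⟩ := Nat.card_pos_iff.1 hpos
  have h1 := QuotientGroup.eq.1 hvx
  exact ⟨v, hv, fun hvN => hx (by simpa using (Nz T).mul_mem hvN h1), h1⟩

theorem cent_inverted (h : Hyp T) {u d : G} (hu : orderOf u = 2) (huH : u ∉ Nz T) (hd : d ∈ Dl T u)
    (hd1 : d ≠ 1) {a : G} (ha : Commute a d) : u * a * u = a⁻¹ := by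
  have hmem : ∀ x, x ∈ Subgroup.centralizer ({d} : Set G) ↔ Commute x d :=
    fun x => Subgroup.mem_centralizer_singleton_iff
  refine inverts_of_free (Subgroup.centralizer ({d} : Set G)) u hu (fun x hx => ?_) (fun x hx hc => ?_) a
    ((hmem a).2 ha)
  · rw [hmem] at hx ⊢
    have hd' := inverts h hu huH d hd
    have h1 : u * x * u * (u * d * u) = (u * d * u) * (u * x * u) := by
      rw [show u * x * u * (u * d * u) = u * x * (u * u) * d * u by group,
        show u * d * u * (u * x * u) = u * d * (u * u) * x * u by group, mul_self_of_orderTwo hu]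
      simp only [mul_one]
      rw [mul_assoc u x d, hx.eq, ← mul_assoc]
    rw [hd'] at h1
    simpa using (show Commute (u * x * u) d⁻¹ from h1).inv_right
  · by_contra hx1
    rw [hmem] at hx
    by_cases ho : Odd (orderOf x)
    · refine hx1 (eq_one_of_odd h hu ?_ ho)
      show x * u = u * x
      calc x * u = u * x * u * u := by rw [hc]
        _ = u * x := by rw [mul_assoc, mul_self_of_orderTwo hu, mul_one]
    · rw [Nat.not_odd_iff_even, even_iff_two_dvd] at ho
      obtain ⟨k, hk⟩ := ho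
      have hi : orderOf (x ^ k) = 2 := by
        have hk0 : k ≠ 0 := fun e => (orderOf_pos x).ne' (by rw [hk, e, mul_zero])
        rw [orderOf_pow' _ hk0, hk, Nat.gcd_mul_left_left, Nat.mul_div_cancel _ (Nat.pos_of_ne_zero hk0)]
      exact hd1 (eq_one_of_odd h hi (hx.pow_left k).symm (odd_orderOf_Dl h huH hd))

theorem ua_not_mem (h : Hyp T) {u d : G} (hu : orderOf u = 2) (huH : u ∉ Nz T) (hd : d ∈ Dl T u)
    (hd1 : d ≠ 1) {a : G} (ha : Commute a d) : u * a ∉ Nz T := by
  intro hN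
  have hinv : (u * a) * d * (u * a)⁻¹ = d⁻¹ := by
    rw [mul_inv_rev, inv_of_orderTwo hu]
    calc u * a * d * (a⁻¹ * u) = u * (a * d) * a⁻¹ * u := by group
      _ = u * d * u := by rw [ha.eq]; group
      _ = _ := inverts h hu huH d hd
  have hne : u * a ≠ 1 := by
    intro e
    rw [e, one_mul, inv_one, mul_one] at hinv
    exact hd1 (eq_one_of_odd h hu (by
      show d * u = u * d
      calc d * u = u * d * u * u := by rw [inverts h hu huH d hd, ← hinv]
        _ = u * d := by rw [mul_assoc, mul_self_of_orderTwo hu, mul_one]) (odd_orderOf_Dl h huH hd))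
  have ho : orderOf (u * a) = 2 := orderOf_eq_prime (by
    rw [sq, show u * a * (u * a) = (u * a * u) * a by group, cent_inverted h hu huH hd hd1 ha, inv_mul_cancel]) hne
  have hT := mem_T_of_invol h hN ho
  have h1 : d * (u * a)⁻¹ * d⁻¹ ∈ (T : Subgroup G) :=
    (Subgroup.mem_normalizer_iff.1 hd.1 _).1 ((T : Subgroup G).inv_mem hT)
  have h2 : d⁻¹ * d⁻¹ = 1 := by
    refine Dl_inf_T h huH ((Dl T u).mul_mem ((Dl T u).inv_mem hd) ((Dl T u).inv_mem hd)) ?_
    have := (T : Subgroup G).mul_mem hT h1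
    rwa [show u * a * (d * (u * a)⁻¹ * d⁻¹) = u * a * d * (u * a)⁻¹ * d⁻¹ by group, hinv] at this
  have h3 : d ^ 2 = 1 := by rw [sq, ← inv_inj, mul_inv_rev, h2, inv_one]
  refine hd1 (orderOf_eq_one_iff.1 ?_)
  rcases (Nat.dvd_prime Nat.prime_two).1 (orderOf_dvd_of_pow_eq_one h3) with h4 | h4
  · exact h4
  · have := odd_orderOf_Dl h huH hd
    rw [h4] at this
    exact absurd this (by decide)

/-- A nontrivial element of `D` fixes exactly the cosets `H` and `uH`. -/
theorem fixed_points (h : Hyp T) {u d x : G} (hu : orderOf u = 2) (huH : u ∉ Nz T) (hd : d ∈ Dl T u)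
    (hd1 : d ≠ 1) (hx : x⁻¹ * d * x ∈ Nz T) : x ∈ (Nz T) ∨ u * x ∈ Nz T := by
  have step : ∀ y : G, y ∉ (Nz T) → y⁻¹ * d * y ∈ (Nz T) → ∃ a, Commute a d ∧ (u * a)⁻¹ * y ∈ Nz T := by
    intro y hy hyd
    obtain ⟨v, hv, hvN, hvy⟩ := exists_invol h hy
    have hdv : d ∈ Dl T v := (mem_Dl hv).2 ⟨hd.1, by
      have h1 := (Nz T).mul_mem ((Nz T).mul_mem hvy hyd) ((Nz T).inv_mem hvy)
      rwa [show v⁻¹ * y * (y⁻¹ * d * y) * (v⁻¹ * y)⁻¹ = v⁻¹ * d * v by group, inv_of_orderTwo hv] at h1⟩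
    refine ⟨u * v, ?_, by rwa [← mul_assoc, mul_self_of_orderTwo hu, one_mul]⟩
    have h1 := inverts h hu huH d hd
    have h2 := inverts h hv hvN d hdv
    show u * v * d = d * (u * v)
    calc u * v * d = u * (v * d * v) * v := by
          rw [show u * (v * d * v) * v = u * v * d * (v * v) by group, mul_self_of_orderTwo hv, mul_one]
      _ = u * (u * d * u) * v := by rw [h2, h1]
      _ = d * (u * v) := by
        rw [show u * (u * d * u) * v = u * u * d * (u * v) by group, mul_self_of_orderTwo hu, one_mul]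
  have hAN : ∀ a, Commute a d → a ∈ Nz T := by
    intro a ha
    by_contra haN
    obtain ⟨a', ha', h1⟩ := step a haN (by
      rw [mul_assoc, ← ha.eq, inv_mul_cancel_left]; exact hd.1)
    have h2 := (Nz T).inv_mem h1
    rw [mul_inv_rev, inv_inv, ← mul_assoc] at h2
    have h3 : a⁻¹ * u = u * a := by
      rw [← cent_inverted h hu huH hd hd1 ha, show u * a * u * u = u * a * (u * u) by group,
        mul_self_of_orderTwo hu, mul_one]
    rw [h3, mul_assoc] at h2
    exact ua_not_mem h hu huH hd hd1 (ha.mul_left ha') h2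
  by_cases hxN : x ∈ Nz T
  · exact Or.inl hxN
  refine Or.inr ?_
  obtain ⟨a, ha, h1⟩ := step x hxN hx
  have := (Nz T).mul_mem (hAN a ha) h1
  rwa [mul_inv_rev, inv_of_orderTwo hu, ← mul_assoc, ← mul_assoc, mul_inv_cancel, one_mul] at this

theorem smul_mk_eq {g x y : G} :
    g • (QuotientGroup.mk x : G ⧸ Nz T) = QuotientGroup.mk y ↔ y⁻¹ * g * x ∈ Nz T := by
  rw [MulAction.Quotient.smul_coe, eq_comm, QuotientGroup.eq, smul_eq_mul, mul_assoc]

end Cfsg.Lib.TwoFus.ElemCent
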