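import Mathlib
import Cfsg.Agent.Lib.TwoFus.ElemCentralizer

/-!
The action on the cosets of the Sylow normalizer is sharply three times transitive.
-/

set_option autoImplicit false

namespace Cfsg.Lib.TwoFus.ElemCent

open Cfsg.Lib.Invol

variable {G : Type*} [Group G] [Finite G] {T : Sylow 2 G}

theorem T_semiregular (h : Hyp T) {t x : G} (ht : t ∈ (T : Subgroup G)) (hx : x ∉ Nz T)
    (hf : x⁻¹ * t * x ∈ Nz T) : t = 1 := by
  by_contra h1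
  exact hx (se_mem (se h) (t := x⁻¹ * t * x) hf (by simpa using orderTwo_conj x⁻¹ (orderOf_T h ht h1))
    (by rw [show x * (x⁻¹ * t * x) * x⁻¹ = t by group]; exact Subgroup.le_normalizer ht))

/-- Elements of `H` outside `T` are conjugate into `D` by elements of `T`. -/
theorem conj_into_Dl (h : Hyp T) {u n : G} (hu : orderOf u = 2) (huH : u ∉ Nz T) (hn : n ∈ Nz T)
    (hnT : n ∉ (T : Subgroup G)) :
    ∃ t ∈ (T : Subgroup G), ∃ e ∈ Dl T u, e ≠ 1 ∧ t * e * t⁻¹ = n := by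
  obtain ⟨e, he, t0, ht0, rfl⟩ := exists_decomp h hu huH hn
  have he1 : e ≠ 1 := fun e1 => hnT (by rw [e1, one_mul]; exact ht0)
  let f : ↥(T : Subgroup G) → ↥(T : Subgroup G) := fun t => ⟨e⁻¹ * ((t : G) * e * (t : G)⁻¹), by
    rw [show e⁻¹ * ((t : G) * e * (t : G)⁻¹) = e⁻¹ * (t : G) * e * (t : G)⁻¹ by group]
    refine (T : Subgroup G).mul_mem ?_ ((T : Subgroup G).inv_mem t.2)
    have := (Subgroup.mem_normalizer_iff.1 ((Nz T).inv_mem he.1) (t : G)).1 t.2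
    rwa [inv_inv] at this⟩
  have hf : Function.Injective f := by
    intro a b hab
    have h1 : (a : G) * e * (a : G)⁻¹ = b * e * (b : G)⁻¹ := mul_left_cancel (congrArg Subtype.val hab)
    have hc : Commute ((b⁻¹ * a : (T : Subgroup G)) : G) e := by
      show (b : G)⁻¹ * a * e = e * ((b : G)⁻¹ * a)
      calc (b : G)⁻¹ * a * e = (b : G)⁻¹ * ((a : G) * e * (a : G)⁻¹) * a := by group
        _ = (b : G)⁻¹ * ((b : G) * e * (b : G)⁻¹) * a := by rw [h1]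
        _ = _ := by group
    have h2 := Dl_inf_T h huH (cent_N h hu huH he he1 (Subgroup.le_normalizer (b⁻¹ * a).2) hc) (b⁻¹ * a).2
    exact (inv_mul_eq_one.1 (Subtype.ext h2 : b⁻¹ * a = 1)).symm
  obtain ⟨t, ht⟩ := Finite.injective_iff_surjective.1 hf ⟨t0, ht0⟩
  have h1 : e⁻¹ * ((t : G) * e * (t : G)⁻¹) = t0 := congrArg Subtype.val ht
  exact ⟨t, t.2, e, he, he1, by rw [← h1, mul_inv_cancel_left]⟩

theorem T_transitive (h : Hyp T) {u x : G} (hu : orderOf u = 2) (huH : u ∉ Nz T) (hx : x ∉ Nz T) :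
    ∃ t ∈ (T : Subgroup G), (t * u)⁻¹ * x ∈ Nz T := by
  obtain ⟨v, hv, hvN, hvx⟩ := exists_invol h hx
  obtain ⟨d, hd, hd1⟩ := exists_ne_one h hv hvN
  obtain ⟨t, ht, e, he, he1, hte⟩ := conj_into_Dl h hu huH hd.1 fun hT => hd1 (Dl_inf_T h hvN hd hT)
  have hfix : (t⁻¹ * v)⁻¹ * e * (t⁻¹ * v) ∈ Nz T := by
    have e' : (t⁻¹ * v)⁻¹ * e * (t⁻¹ * v) = v * d * v := by
      rw [← hte, mul_inv_rev, inv_inv, inv_of_orderTwo hv]; group
    rw [e']
    exact ((mem_Dl hv).1 hd).2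
  rcases fixed_points h hu huH he he1 hfix with h1 | h1
  · exact absurd ((Nz T).mul_mem (Subgroup.le_normalizer ht) h1) (by rwa [mul_inv_cancel_left])
  · refine ⟨t, ht, ?_⟩
    have := (Nz T).mul_mem h1 hvx
    rwa [show u * (t⁻¹ * v) * (v⁻¹ * x) = (u⁻¹ * t⁻¹) * x by rw [inv_of_orderTwo hu]; group,
      ← mul_inv_rev] at this


theorem mk_eq_one {x : G} : (QuotientGroup.mk x : G ⧸ Nz T) = QuotientGroup.mk 1 ↔ x ∈ Nz T := by
  rw [eq_comm, QuotientGroup.eq, inv_one, one_mul]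

theorem mk_u_ne {u : G} (huH : u ∉ Nz T) : (QuotientGroup.mk u : G ⧸ Nz T) ≠ QuotientGroup.mk 1 :=
  fun e => huH (mk_eq_one.1 e)

theorem stab_one {g : G} : g • (QuotientGroup.mk 1 : G ⧸ Nz T) = QuotientGroup.mk 1 ↔ g ∈ Nz T := by
  rw [smul_mk_eq, inv_one, one_mul, mul_one]

theorem ne_one_smul {g : G} {x : G ⧸ Nz T} (hg : g ∈ Nz T) (hx : x ≠ QuotientGroup.mk 1) :
    g • x ≠ QuotientGroup.mk 1 := fun e => hx (smul_left_cancel g (e.trans (stab_one.2 hg).symm))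

theorem regular (h : Hyp T) (x y : G ⧸ Nz T) (hx : x ≠ QuotientGroup.mk 1) (hy : y ≠ QuotientGroup.mk 1) :
    ∃! t : G, t ∈ T ∧ t • x = y := by
  obtain ⟨a, rfl⟩ := QuotientGroup.mk_surjective x
  obtain ⟨b, rfl⟩ := QuotientGroup.mk_surjective y
  rw [Ne, mk_eq_one] at hx hy
  obtain ⟨u, hu, huH, -⟩ := exists_invol h hx
  obtain ⟨t1, ht1, h1⟩ := T_transitive h hu huH hx
  obtain ⟨t2, ht2, h2⟩ := T_transitive h hu huH hy
  refine ⟨t2 * t1⁻¹, ⟨(T : Subgroup G).mul_mem ht2 ((T : Subgroup G).inv_mem ht1), ?_⟩, ?_⟩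
  · rw [smul_mk_eq]
    have := (Nz T).mul_mem ((Nz T).inv_mem h2) h1
    rwa [show ((t2 * u)⁻¹ * b)⁻¹ * ((t1 * u)⁻¹ * a) = b⁻¹ * (t2 * t1⁻¹) * a by group] at this
  · rintro t ⟨ht, hte⟩
    rw [smul_mk_eq] at hte
    have htT : t ∈ (T : Subgroup G) := ht
    have hm : t2 * t1⁻¹ ∈ (T : Subgroup G) := (T : Subgroup G).mul_mem ht2 ((T : Subgroup G).inv_mem ht1)
    have h3 := (Nz T).mul_mem ((Nz T).inv_mem h2) h1
    rw [show ((t2 * u)⁻¹ * b)⁻¹ * ((t1 * u)⁻¹ * a) = b⁻¹ * (t2 * t1⁻¹) * a by group] at h3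
    have := (Nz T).mul_mem ((Nz T).inv_mem h3) hte
    rw [show (b⁻¹ * (t2 * t1⁻¹) * a)⁻¹ * (b⁻¹ * t * a) = a⁻¹ * ((t2 * t1⁻¹)⁻¹ * t) * a by group] at this
    exact (inv_mul_eq_one.1 (T_semiregular h ((T : Subgroup G).mul_mem ((T : Subgroup G).inv_mem hm) htT) hx this)).symm

theorem Dl_fix {u d : G} (hu : orderOf u = 2) (hd : d ∈ Dl T u) :
    d • (QuotientGroup.mk 1 : G ⧸ Nz T) = QuotientGroup.mk 1 ∧
      d • (QuotientGroup.mk u : G ⧸ Nz T) = QuotientGroup.mk u := by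
  refine ⟨stab_one.2 hd.1, ?_⟩
  rw [smul_mk_eq, inv_of_orderTwo hu]
  exact ((mem_Dl hu).1 hd).2

theorem mem_Dl_of_fix {u g : G} (hu : orderOf u = 2)
    (h1 : g • (QuotientGroup.mk 1 : G ⧸ Nz T) = QuotientGroup.mk 1)
    (h2 : g • (QuotientGroup.mk u : G ⧸ Nz T) = QuotientGroup.mk u) : g ∈ Dl T u := by
  rw [smul_mk_eq, inv_of_orderTwo hu] at h2
  exact (mem_Dl hu).2 ⟨stab_one.1 h1, h2⟩

theorem Dl_free (h : Hyp T) {u d : G} (hu : orderOf u = 2) (huH : u ∉ Nz T) (hd : d ∈ Dl T u)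
    {z : G ⧸ Nz T} (hz : z ≠ QuotientGroup.mk 1) (hzu : z ≠ QuotientGroup.mk u) (hf : d • z = z) : d = 1 := by
  by_contra h1
  obtain ⟨a, rfl⟩ := QuotientGroup.mk_surjective z
  rw [smul_mk_eq] at hf
  rcases fixed_points h hu huH hd h1 hf with h2 | h2
  · exact hz (mk_eq_one.2 h2)
  · exact hzu (QuotientGroup.eq.2 (by
      have := (Nz T).inv_mem h2
      rwa [mul_inv_rev, inv_of_orderTwo hu] at this))

theorem card_points (h : Hyp T) {u : G} (hu : orderOf u = 2) (huH : u ∉ Nz T) :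
    Nat.card {z : G ⧸ Nz T // z ≠ QuotientGroup.mk 1} = Nat.card T := by
  refine (Nat.card_congr (Equiv.ofBijective (fun t : (T : Subgroup G) =>
    (⟨(t : G) • (QuotientGroup.mk u : G ⧸ Nz T), ne_one_smul (Subgroup.le_normalizer t.2) (mk_u_ne huH)⟩ :
      {z : G ⧸ Nz T // z ≠ QuotientGroup.mk 1})) ⟨?_, ?_⟩)).symm
  · intro a b hab
    obtain ⟨t, -, huniq⟩ := regular h _ _ (mk_u_ne huH)
      (ne_one_smul (Subgroup.le_normalizer a.2) (mk_u_ne huH))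
    exact Subtype.ext ((huniq _ ⟨a.2, rfl⟩).trans (huniq _ ⟨b.2, (congrArg Subtype.val hab).symm⟩).symm)
  · rintro ⟨z, hz⟩
    obtain ⟨t, ⟨ht, hte⟩, -⟩ := regular h _ z (mk_u_ne huH) hz
    exact ⟨⟨t, ht⟩, Subtype.ext hte⟩

theorem card_cosets (h : Hyp T) : Nat.card (G ⧸ Nz T) = Nat.card T + 1 := by
  classical
  obtain ⟨u, huH, hu⟩ := se_exists_not_mem (se h)
  rw [← card_points h hu huH]
  haveI := Fintype.ofFinite (G ⧸ Nz T)
  rw [Nat.card_eq_fintype_card, Nat.card_eq_fintype_card, Fintype.card_subtype_compl, Fintype.card_subtype_eq]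
  have : 0 < Fintype.card (G ⧸ Nz T) := Fintype.card_pos_iff.2 ⟨QuotientGroup.mk 1⟩
  omega

theorem card_group (h : Hyp T) {u : G} (hu : orderOf u = 2) (huH : u ∉ Nz T) :
    Nat.card G = (Nat.card T + 1) * (Nat.card T * (Nat.card T - 1)) := by
  rw [← card_cosets h, ← card_normalizer h hu huH]
  exact Subgroup.card_eq_card_quotient_mul_card_subgroup (Nz T)

theorem Dl_transitive (h : Hyp T) {u : G} (hu : orderOf u = 2) (huH : u ∉ Nz T) {z z' : G ⧸ Nz T}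
    (hz : z ≠ QuotientGroup.mk 1) (hzu : z ≠ QuotientGroup.mk u)
    (hz' : z' ≠ QuotientGroup.mk 1) (hzu' : z' ≠ QuotientGroup.mk u) : ∃ d ∈ Dl T u, d • z = z' := by
  classical
  let S := {w : {z : G ⧸ Nz T // z ≠ QuotientGroup.mk 1} // w ≠ ⟨QuotientGroup.mk u, mk_u_ne huH⟩}
  let f : Dl T u → S := fun d => ⟨⟨(d : G) • z, ne_one_smul d.2.1 hz⟩, fun e =>
    hzu (smul_left_cancel (d : G) ((congrArg Subtype.val e).trans (Dl_fix hu d.2).2.symm))⟩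
  have hf : Function.Injective f := by
    intro a b hab
    have h1 : (a : G) • z = (b : G) • z := congrArg (fun w : S => w.1.1) hab
    have h2 : ((b⁻¹ * a : Dl T u) : G) • z = z := by
      show ((b : G)⁻¹ * a) • z = z
      rw [mul_smul, h1, inv_smul_smul]
    exact (inv_mul_eq_one.1 (Subtype.ext (Dl_free h hu huH (b⁻¹ * a).2 hz hzu h2) : b⁻¹ * a = 1)).symm
  have hc : Nat.card S ≤ Nat.card (Dl T u) := by
    haveI := Fintype.ofFinite {z : G ⧸ Nz T // z ≠ QuotientGroup.mk 1}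
    have h1 := card_points h hu huH
    have h2 := card_Dl h hu huH
    show Nat.card {w : {z : G ⧸ Nz T // z ≠ QuotientGroup.mk 1} // w ≠ _} ≤ _
    rw [Nat.card_eq_fintype_card, Fintype.card_subtype_compl, Fintype.card_subtype_eq, ← Nat.card_eq_fintype_card, h1]
    omega
  obtain ⟨d, hd⟩ := (hf.bijective_of_nat_card_le hc).2 ⟨⟨z', hz'⟩, fun e => hzu' (congrArg Subtype.val e)⟩
  exact ⟨d, d.2, congrArg (fun w : S => w.1.1) hd⟩

/-- Two points can be moved to `H`, `uH`. -/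
theorem two_transitive (h : Hyp T) {u : G} (hu : orderOf u = 2) (huH : u ∉ Nz T) {x y : G ⧸ Nz T} (hxy : x ≠ y) :
    ∃ g : G, g • x = QuotientGroup.mk 1 ∧ g • y = QuotientGroup.mk u := by
  obtain ⟨a, rfl⟩ := QuotientGroup.mk_surjective x
  have h1 : a⁻¹ • (QuotientGroup.mk a : G ⧸ Nz T) = QuotientGroup.mk 1 := by
    rw [MulAction.Quotient.smul_coe, smul_eq_mul, inv_mul_cancel]
  obtain ⟨t, ⟨ht, hte⟩, -⟩ := regular h (a⁻¹ • y) (QuotientGroup.mk u)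
    (fun e => hxy (smul_left_cancel _ (h1.trans e.symm))) (mk_u_ne huH)
  exact ⟨t * a⁻¹, by rw [mul_smul, h1]; exact stab_one.2 (Subgroup.le_normalizer ht), by rw [mul_smul, hte]⟩

theorem three_transitive (h : Hyp T) (x₁ x₂ x₃ y₁ y₂ y₃ : G ⧸ Nz T) (h12 : x₁ ≠ x₂) (h13 : x₁ ≠ x₃)
    (h23 : x₂ ≠ x₃) (k12 : y₁ ≠ y₂) (k13 : y₁ ≠ y₃) (k23 : y₂ ≠ y₃) :
    ∃ g : G, g • x₁ = y₁ ∧ g • x₂ = y₂ ∧ g • x₃ = y₃ := by
  obtain ⟨u, huH, hu⟩ := se_exists_not_mem (se h)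
  obtain ⟨a, ha1, ha2⟩ := two_transitive h hu huH h12
  obtain ⟨b, hb1, hb2⟩ := two_transitive h hu huH k12
  obtain ⟨d, hd, hde⟩ := Dl_transitive h hu huH (z := a • x₃) (z' := b • y₃)
    (fun e => h13 (smul_left_cancel a (ha1.trans e.symm)))
    (fun e => h23 (smul_left_cancel a (ha2.trans e.symm)))
    (fun e => k13 (smul_left_cancel b (hb1.trans e.symm)))
    (fun e => k23 (smul_left_cancel b (hb2.trans e.symm)))
  refine ⟨b⁻¹ * (d * a), ?_, ?_, ?_⟩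
  · rw [mul_smul, mul_smul, ha1, (Dl_fix hu hd).1, ← hb1, inv_smul_smul]
  · rw [mul_smul, mul_smul, ha2, (Dl_fix hu hd).2, ← hb2, inv_smul_smul]
  · rw [mul_smul, mul_smul, hde, inv_smul_smul]

theorem fix_three (h : Hyp T) (g : G) (x₁ x₂ x₃ : G ⧸ Nz T) (h12 : x₁ ≠ x₂) (h13 : x₁ ≠ x₃)
    (h23 : x₂ ≠ x₃) (e1 : g • x₁ = x₁) (e2 : g • x₂ = x₂) (e3 : g • x₃ = x₃) : g = 1 := by
  obtain ⟨u, huH, hu⟩ := se_exists_not_mem (se h)
  obtain ⟨a, ha1, ha2⟩ := two_transitive h hu huH h12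
  have hc : ∀ x : G ⧸ Nz T, g • x = x → (a * g * a⁻¹) • (a • x) = a • x := fun x hx => by
    rw [mul_smul, mul_smul, inv_smul_smul, hx]
  have hd : a * g * a⁻¹ ∈ Dl T u := mem_Dl_of_fix hu (ha1 ▸ hc _ e1) (ha2 ▸ hc _ e2)
  exact conj_eq_one_iff.1 (Dl_free h hu huH hd (fun e => h13 (smul_left_cancel a (ha1.trans e.symm)))
    (fun e => h23 (smul_left_cancel a (ha2.trans e.symm))) (hc _ e3))

end Cfsg.Lib.TwoFus.ElemCent
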