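import Mathlib
import Cfsg.Agent.Lib.TwoFus.ElemAction

/-!
The field on the Sylow subgroup: multiplication comes from the two point stabilizer.
-/

set_option autoImplicit false

namespace Cfsg.Lib.TwoFus.ElemCent

open Cfsg.Lib.Invol

variable {G : Type*} [Group G] [Finite G] {T : Sylow 2 G}

theorem conj_inj (h : Hyp T) {u s a b : G} (huH : u ∉ Nz T) (hs : orderOf s = 2)
    (ha : a ∈ Dl T u) (hb : b ∈ Dl T u) (e : a * s * a⁻¹ = b * s * b⁻¹) : a = b := by
  have h2 : b⁻¹ * a = 1 := by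
    refine eq_one_of_odd h hs ?_ (odd_orderOf_Dl h huH ((Dl T u).mul_mem ((Dl T u).inv_mem hb) ha))
    show b⁻¹ * a * s = s * (b⁻¹ * a)
    calc b⁻¹ * a * s = b⁻¹ * (a * s * a⁻¹) * a := by group
      _ = b⁻¹ * (b * s * b⁻¹) * a := by rw [e]
      _ = _ := by group
  exact (inv_mul_eq_one.1 h2).symm

theorem exists_field (h : Hyp T) {u : G} (hu : orderOf u = 2) (huH : u ∉ Nz T) :
    ∃ (F : Type) (_ : Field F) (_ : Fintype F) (φ ψ : F → G),
      (∀ a, φ a ∈ (T : Subgroup G)) ∧ Function.Injective φ ∧ (∀ t ∈ (T : Subgroup G), ∃ a, φ a = t) ∧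
      (∀ a b, φ (a + b) = φ a * φ b) ∧ (∀ a, a ≠ 0 → ψ a ∈ Dl T u) ∧
      (∀ a b, a ≠ 0 → ψ a * φ b * (ψ a)⁻¹ = φ (a * b)) ∧ (∀ e ∈ Dl T u, ∃ a, a ≠ 0 ∧ ψ a = e) := by
  classical
  obtain ⟨s, hsT, hs⟩ := exists_s h
  have hsN : s ∈ Nz T := Subgroup.le_normalizer hsT
  let K := ↥(T : Subgroup G)
  let s₁ : K := ⟨s, hsT⟩
  have hs1 : s₁ ≠ 1 := fun e => by
    have e' : s = 1 := congrArg Subtype.val e
    simp [e'] at hs
  have hex : ∀ x : K, ∃ d ∈ Dl T u, x ≠ 1 → d * s * d⁻¹ = (x : G) := by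
    intro x
    by_cases hx : x = 1
    · exact ⟨1, one_mem _, fun hh => absurd hx hh⟩
    · obtain ⟨d, hd, hde⟩ := se_transitive (se h) hu huH hsN hs (Subgroup.le_normalizer x.2)
        (orderOf_T h x.2 fun e => hx (Subtype.ext e))
      exact ⟨d, hd, fun _ => hde⟩
  choose dl hdl hdle using hex
  have huniq : ∀ (x : K) (d : G), x ≠ 1 → d ∈ Dl T u → d * s * d⁻¹ = (x : G) → dl x = d :=
    fun x d hx hd hde => conj_inj h huH hs (hdl x) hd ((hdle x hx).trans hde.symm)
  let cj : K → K → K := fun x y => ⟨dl x * (y : G) * (dl x)⁻¹,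
    (Subgroup.mem_normalizer_iff.1 (hdl x).1 y).1 y.2⟩
  let m : K → K → K := fun x y => if x = 1 then 1 else cj x y
  have cj_one : ∀ x, cj x 1 = 1 := fun x => Subtype.ext (by simp [cj])
  have cj_ne : ∀ x y, y ≠ 1 → cj x y ≠ 1 := fun x y hy e => hy (Subtype.ext (by
    have e' : dl x * (y : G) * (dl x)⁻¹ = 1 := congrArg Subtype.val e
    exact conj_eq_one_iff.1 e'))
  have m_one : ∀ x, m x 1 = 1 := fun x => by
    by_cases hx : x = 1
    · simp only [m]; rw [if_pos hx]
    · simp only [m]; rw [if_neg hx, cj_one]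
  have one_m : ∀ y, m 1 y = 1 := fun y => by simp only [m]; rw [if_pos trivial]
  have m_val : ∀ x y, x ≠ 1 → m x y = cj x y := fun x y hx => by simp only [m]; rw [if_neg hx]
  have dl_m : ∀ x y, x ≠ 1 → y ≠ 1 → dl (m x y) = dl x * dl y := by
    intro x y hx hy
    rw [m_val x y hx]
    refine huniq _ _ (cj_ne x y hy) ((Dl T u).mul_mem (hdl x) (hdl y)) ?_
    show dl x * dl y * s * (dl x * dl y)⁻¹ = dl x * (y : G) * (dl x)⁻¹
    rw [← hdle y hy]; group
  have m_comm : ∀ x y, m x y = m y x := by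
    intro x y
    by_cases hx : x = 1
    · rw [hx, one_m, m_one]
    by_cases hy : y = 1
    · rw [hy, one_m, m_one]
    rw [m_val x y hx, m_val y x hy]
    refine Subtype.ext ?_
    show dl x * (y : G) * (dl x)⁻¹ = dl y * (x : G) * (dl y)⁻¹
    rw [← hdle y hy, ← hdle x hx,
      show dl x * (dl y * s * (dl y)⁻¹) * (dl x)⁻¹ = (dl x * dl y) * s * (dl x * dl y)⁻¹ by group,
      (commute_Dl h hu huH (hdl x) (hdl y)).eq]
    group
  have m_assoc : ∀ x y z, m (m x y) z = m x (m y z) := by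
    intro x y z
    by_cases hx : x = 1
    · rw [hx, one_m, one_m, one_m]
    by_cases hy : y = 1
    · rw [hy, m_one, one_m, m_one]
    have hxy : m x y ≠ 1 := by rw [m_val x y hx]; exact cj_ne x y hy
    rw [m_val (m x y) z hxy, m_val y z hy, m_val x (cj y z) hx]
    refine Subtype.ext ?_
    show dl (m x y) * (z : G) * (dl (m x y))⁻¹ = dl x * (dl y * (z : G) * (dl y)⁻¹) * (dl x)⁻¹
    rw [dl_m x y hx hy]; group
  have m_s : ∀ x, m s₁ x = x := by
    intro x
    rw [m_val s₁ x hs1]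
    refine Subtype.ext ?_
    show dl s₁ * (x : G) * (dl s₁)⁻¹ = (x : G)
    rw [huniq s₁ 1 hs1 (one_mem _) (by simp [s₁]), one_mul, inv_one, mul_one]
  have m_distrib : ∀ x y z, m x (y * z) = m x y * m x z := by
    intro x y z
    by_cases hx : x = 1
    · rw [hx, one_m, one_m, one_m, one_mul]
    rw [m_val x _ hx, m_val x y hx, m_val x z hx]
    refine Subtype.ext ?_
    show dl x * ((y : G) * z) * (dl x)⁻¹ = dl x * (y : G) * (dl x)⁻¹ * (dl x * (z : G) * (dl x)⁻¹)
    group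
  letI : Add K := ⟨(· * ·)⟩
  letI : Zero K := ⟨1⟩
  letI : Neg K := ⟨fun x => x⁻¹⟩
  letI : Mul (Additive K) := ⟨fun x y => Additive.ofMul (m x.toMul y.toMul)⟩
  letI : One (Additive K) := ⟨Additive.ofMul s₁⟩
  letI cr : CommRing (Additive K) := CommRing.ofMinimalAxioms
    (fun a b c => congrArg Additive.ofMul (mul_assoc a.toMul b.toMul c.toMul))
    (fun a => congrArg Additive.ofMul (one_mul a.toMul))
    (fun a => congrArg Additive.ofMul (inv_mul_cancel a.toMul))
    (fun a b c => congrArg Additive.ofMul (m_assoc a.toMul b.toMul c.toMul))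
    (fun a b => congrArg Additive.ofMul (m_comm a.toMul b.toMul))
    (fun a => congrArg Additive.ofMul (m_s a.toMul))
    (fun a b c => congrArg Additive.ofMul (m_distrib a.toMul b.toMul c.toMul))
  have hF : IsField (Additive K) := by
    refine ⟨⟨1, 0, fun e => hs1 (congrArg Additive.toMul e)⟩, mul_comm, fun {a} ha => ?_⟩
    have ha1 : a.toMul ≠ 1 := fun e => ha (congrArg Additive.ofMul e)
    refine ⟨Additive.ofMul (⟨(dl a.toMul)⁻¹ * s * dl a.toMul, ?_⟩ : K), ?_⟩
    · have := (Subgroup.mem_normalizer_iff.1 ((Nz T).inv_mem (hdl a.toMul).1) s).1 hsT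
      rwa [inv_inv] at this
    · refine congrArg Additive.ofMul ((m_val _ _ ha1).trans (Subtype.ext ?_))
      show dl a.toMul * ((dl a.toMul)⁻¹ * s * dl a.toMul) * (dl a.toMul)⁻¹ = s
      group
  letI : Field (Additive K) := hF.toField
  have : Finite (Additive K) := Finite.of_equiv K Additive.ofMul
  let e : Shrink.{0} (Additive K) ≃+* Additive K := (equivShrink.{0} (Additive K)).symm.ringEquiv
  refine ⟨Shrink.{0} (Additive K), inferInstance, Fintype.ofFinite _, fun a => ((e a).toMul : G),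
    fun a => dl (e a).toMul, fun a => (e a).toMul.2, fun a b hab => e.injective (Subtype.ext hab : (e a).toMul = (e b).toMul),
    fun t ht => ⟨e.symm (Additive.ofMul (⟨t, ht⟩ : K)), by simp⟩, fun a b => ?_, fun a _ => hdl _, fun a b ha => ?_,
    fun d hd => ?_⟩
  · show ((e (a + b)).toMul : G) = ((e a).toMul : G) * ((e b).toMul : G)
    rw [map_add]; rfl
  · have ha1 : (e a).toMul ≠ 1 := fun hh => ha (e.injective ((congrArg Additive.ofMul hh).trans (map_zero e).symm))
    show dl (e a).toMul * ((e b).toMul : G) * (dl (e a).toMul)⁻¹ = ((e (a * b)).toMul : G)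
    rw [map_mul]
    exact (congrArg Subtype.val (m_val _ (e b).toMul ha1)).symm
  · have hx : (⟨d * s * d⁻¹, mem_T_of_invol h ((Nz T).mul_mem ((Nz T).mul_mem hd.1 hsN) ((Nz T).inv_mem hd.1))
        (orderTwo_conj _ hs)⟩ : K) ≠ 1 := fun hh => by
      have h1 : d * s * d⁻¹ = 1 := congrArg Subtype.val hh
      rw [conj_eq_one_iff] at h1
      simp [h1] at hs
    refine ⟨e.symm (Additive.ofMul _), fun hh => hx (congrArg Additive.toMul ((e.symm.map_eq_zero_iff).1 hh)), ?_⟩
    show dl (e (e.symm _)).toMul = d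
    rw [RingEquiv.apply_symm_apply]
    exact huniq _ d hx hd rfl

end Cfsg.Lib.TwoFus.ElemCent
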