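import Mathlib
import Cfsg.Agent.Lib.TwoFus.ElemField
import Cfsg.Agent.Lib.Classical.LinearOrders

/-!
Groups with elementary abelian centralizers of involutions are two dimensional linear groups.
-/

set_option autoImplicit false

namespace Cfsg.Lib.TwoFus.ElemCent

open Cfsg.Lib.Invol OnePoint

variable {G : Type*} [Group G] [Finite G] {T : Sylow 2 G}

theorem exists_iso (h : Hyp T) :
    ∃ (F : Type) (_ : Field F) (_ : Fintype F), Fintype.card F = Nat.card T ∧
      Nonempty (G ≃* Matrix.ProjectiveSpecialLinearGroup (Fin 2) F) := by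
  classical
  obtain ⟨u, huH, hu⟩ := se_exists_not_mem (se h)
  obtain ⟨F, iF, iFt, φ, ψ, hφT, hφi, hφs, hφadd, hψD, hψφ, hψs⟩ := exists_field h hu huH
  refine ⟨F, iF, iFt, ?_, ?_⟩
  · rw [← Nat.card_eq_fintype_card]
    exact Nat.card_congr (Equiv.ofBijective (fun a => (⟨φ a, hφT a⟩ : (T : Subgroup G)))
      ⟨fun a b e => hφi (congrArg Subtype.val e), fun t => (hφs t t.2).imp fun a e => Subtype.ext e⟩)
  have hcard : Fintype.card F = Nat.card T := by
    rw [← Nat.card_eq_fintype_card]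
    exact Nat.card_congr (Equiv.ofBijective (fun a => (⟨φ a, hφT a⟩ : (T : Subgroup G)))
      ⟨fun a b e => hφi (congrArg Subtype.val e), fun t => (hφs t t.2).imp fun a e => Subtype.ext e⟩)
  have hφ0 : φ 0 = 1 := by simpa using hφadd 0 0
  have h2 : (2 : F) = 0 := by
    refine hφi ?_
    rw [hφ0, show (2 : F) = 1 + 1 by norm_num, hφadd, ← sq, sq_T h (hφT 1)]
  have hchar : ringChar F = 2 := by
    haveI : CharP F 2 := (CharP.charP_iff_prime_eq_zero Nat.prime_two).2 (by exact_mod_cast h2)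
    exact ringChar.eq F 2
  have hneg : ∀ x : F, -x = x := fun x => by linear_combination (-x) * h2
  let pu : G ⧸ Nz T := QuotientGroup.mk u
  let p1 : G ⧸ Nz T := QuotientGroup.mk 1
  let P : OnePoint F → G ⧸ Nz T := fun z => z.elim p1 (fun a => φ a • pu)
  have hPi : P ∞ = p1 := rfl
  have hPc : ∀ a : F, P (a : OnePoint F) = φ a • pu := fun _ => rfl
  have hne : ∀ a : F, φ a • pu ≠ p1 := fun a => ne_one_smul (Subgroup.le_normalizer (hφT a)) (mk_u_ne huH)
  have hinj : ∀ a b : F, φ a • pu = φ b • pu → a = b := by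
    intro a b e
    obtain ⟨t, -, hq⟩ := regular h pu (φ a • pu) (mk_u_ne huH) (hne a)
    exact hφi ((hq _ ⟨hφT a, rfl⟩).trans (hq _ ⟨hφT b, e.symm⟩).symm)
  have hP : Function.Bijective P := by
    constructor
    · intro x y e
      cases x with
      | infty => cases y with
        | infty => rfl
        | coe b => exact absurd e.symm (hne b)
      | coe a => cases y with
        | infty => exact absurd e (hne a)
        | coe b => exact congrArg _ (hinj a b e)
    · intro z
      by_cases hz : z = p1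
      · exact ⟨∞, hz.symm⟩
      · obtain ⟨t, ⟨ht, hte⟩, -⟩ := regular h pu z (mk_u_ne huH) hz
        obtain ⟨a, rfl⟩ := hφs t ht
        exact ⟨(a : OnePoint F), hte⟩
  let E := Equiv.ofBijective P hP
  let ρ : G →* Equiv.Perm (OnePoint F) := (E.symm.permCongrHom).toMonoidHom.comp (MulAction.toPermHom G (G ⧸ Nz T))
  have hρ : ∀ g x, P (ρ g x) = g • P x := by
    intro g x
    show E (E.symm (g • E x)) = g • P x
    rw [Equiv.apply_symm_apply]; rfl
  have hρinj : Function.Injective ρ := by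
    refine (injective_iff_map_eq_one ρ).2 fun g hg => ?_
    have hfix : ∀ x, g • P x = P x := fun x => by rw [← hρ, hg]; rfl
    exact fix_three h g (P ∞) (P ((0 : F) : OnePoint F)) (P ((1 : F) : OnePoint F)) (fun e => hne 0 e.symm)
      (fun e => hne 1 e.symm) (fun e => zero_ne_one (hinj _ _ e)) (hfix _) (hfix _) (hfix _)
  -- the action of the generators
  have hψu : ∀ a, a ≠ 0 → ψ a • pu = pu := fun a ha => (Dl_fix hu (hψD a ha)).2
  have hψ1 : ∀ a, a ≠ 0 → ψ a • p1 = p1 := fun a ha => (Dl_fix hu (hψD a ha)).1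
  have hψP : ∀ a b, a ≠ 0 → ψ a • (φ b • pu) = φ (a * b) • pu := by
    intro a b ha
    rw [← hψφ a b ha, mul_smul, mul_smul, inv_smul_eq_iff.2 (hψu a ha).symm]
  have hu1 : u • p1 = pu := by
    show u • (QuotientGroup.mk 1 : G ⧸ Nz T) = QuotientGroup.mk u
    rw [MulAction.Quotient.smul_coe, smul_eq_mul, mul_one]
  have huu : u • pu = p1 := by
    show u • (QuotientGroup.mk u : G ⧸ Nz T) = QuotientGroup.mk 1
    rw [MulAction.Quotient.smul_coe, smul_eq_mul, mul_self_of_orderTwo hu]
  obtain ⟨c, hc⟩ : ∃ c : F, φ c • pu = u • (φ 1 • pu) := by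
    obtain ⟨x, hx⟩ := hP.2 (u • (φ 1 • pu))
    cases x with
    | infty =>
      exfalso
      rw [hPi, eq_comm, ← huu] at hx
      have := smul_left_cancel u hx
      exact one_ne_zero (hinj 1 0 (by rw [hφ0, one_smul]; exact this))
    | coe c => exact ⟨c, hx⟩
  have hc0 : c ≠ 0 := by
    intro e
    rw [e, hφ0, one_smul] at hc
    exact hne 1 (smul_left_cancel u (hu1.trans hc)).symm
  have huP : ∀ a : F, a ≠ 0 → u • (φ a • pu) = φ (c / a) • pu := by
    intro a ha
    have h1 : φ a • pu = ψ a • (φ 1 • pu) := by rw [hψP a 1 ha, mul_one]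
    have h2' : u * ψ a = (ψ a)⁻¹ * u := by
      rw [← inverts h hu huH _ (hψD a ha), mul_assoc, mul_self_of_orderTwo hu, mul_one]
    rw [h1, ← mul_smul, h2', mul_smul, ← hc, inv_smul_eq_iff, hψP a _ ha, mul_div_cancel₀ c ha]
  let σ : Matrix.SpecialLinearGroup (Fin 2) F →* Equiv.Perm (OnePoint F) :=
    (MulAction.toPermHom (GL (Fin 2) F) (OnePoint F)).comp Matrix.SpecialLinearGroup.toGL
  have hσ : ∀ A x, σ A x = (Matrix.SpecialLinearGroup.toGL A) • x := fun _ _ => rfl
  have key : ∀ (A : Matrix.SpecialLinearGroup (Fin 2) F) (g : G),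
      g • P ∞ = P (if A.1 1 0 = 0 then (∞ : OnePoint F) else ((A.1 0 0 / A.1 1 0 : F) : OnePoint F)) →
      (∀ k : F, g • P k = P (if A.1 1 0 * k + A.1 1 1 = 0 then (∞ : OnePoint F)
        else (((A.1 0 0 * k + A.1 0 1) / (A.1 1 0 * k + A.1 1 1) : F) : OnePoint F))) →
      g ∈ σ.range.comap ρ := by
    intro A g h1 h2
    refine ⟨A, Equiv.ext fun x => hP.1 ?_⟩
    rw [hρ, hσ]
    cases x with
    | infty => rw [h1, OnePoint.smul_infty_eq_ite]; rfl
    | coe k => rw [h2 k, OnePoint.smul_some_eq_ite]; rfl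
  have hmφ : ∀ a, φ a ∈ σ.range.comap ρ := by
    intro a
    refine key ⟨!![1, a; 0, 1], by simp [Matrix.det_fin_two]⟩ _ ?_ fun k => ?_
    · simp only [hPi]
      rw [if_pos (by simp), hPi]
      exact stab_one.2 (Subgroup.le_normalizer (hφT a))
    · rw [if_neg (by simp), hPc, hPc, ← mul_smul, ← hφadd]
      simp [add_comm]
  have hsq : ∀ a : F, ∃ r, r * r = a := fun a => (FiniteField.isSquare_of_char_two hchar a).imp fun r hr => hr.symm
  have hmψ : ∀ a, a ≠ 0 → ψ a ∈ σ.range.comap ρ := by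
    intro a ha
    obtain ⟨r, hr⟩ := hsq a
    have hr0 : r ≠ 0 := fun e => ha (by rw [← hr, e, mul_zero])
    refine key ⟨!![r, 0; 0, r⁻¹], by simp [Matrix.det_fin_two, hr0]⟩ _ ?_ fun k => ?_
    · rw [if_pos (by simp), hPi]
      exact hψ1 a ha
    · rw [if_neg (by simp [hr0]), hPc, hPc, hψP a k ha]
      congr 2
      rw [← hr]
      simp
      field_simp
  have hmu : u ∈ σ.range.comap ρ := by
    obtain ⟨r, hr⟩ := hsq c
    have hr0 : r ≠ 0 := fun e => hc0 (by rw [← hr, e, mul_zero])
    refine key ⟨!![0, r; r⁻¹, 0], by simp [Matrix.det_fin_two, hr0, hneg]⟩ _ ?_ fun k => ?_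
    · rw [if_neg (by simp [hr0]), hPi, hPc]
      simp only [Matrix.cons_val_zero, Matrix.cons_val_one, Matrix.of_apply, zero_div, hφ0, one_smul]
      exact hu1
    · by_cases hk : k = 0
      · rw [if_pos (by simp [hk]), hPc, hk, hφ0, one_smul, hPi]
        exact huu
      · rw [if_neg (by simp [hk, hr0]), hPc, hPc, huP k hk]
        congr 2
        rw [← hr]
        simp
        field_simp
  have hN : ∀ n ∈ Nz T, n ∈ σ.range.comap ρ := by
    intro n hn
    obtain ⟨e, he, t, ht, rfl⟩ := exists_decomp h hu huH hn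
    obtain ⟨a, ha, rfl⟩ := hψs e he
    obtain ⟨b, rfl⟩ := hφs t ht
    exact mul_mem (hmψ a ha) (hmφ b)
  have hall : ∀ g, g ∈ σ.range.comap ρ := by
    intro g
    by_cases hg : g ∈ Nz T
    · exact hN g hg
    · obtain ⟨t, ht, htg⟩ := T_transitive h hu huH hg
      obtain ⟨b, rfl⟩ := hφs t ht
      have := mul_mem (mul_mem (hmφ b) hmu) (hN _ htg)
      rwa [mul_inv_cancel_left] at this
  have hle : ρ.range ≤ σ.range := by
    rintro _ ⟨g, rfl⟩
    exact hall g
  have hSL : Nat.card (Matrix.SpecialLinearGroup (Fin 2) F) = Nat.card G := by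
    have h1 := Cfsg.Lib.Classical.LinearOrders.card_sl_mul (F := F) (n := 2) (by norm_num)
    rw [Fin.prod_univ_two, hcard] at h1
    rw [card_group h hu huH]
    obtain ⟨q, hq⟩ : ∃ q, Nat.card T = q + 1 := ⟨Nat.card T - 1, by have := four_le h; omega⟩
    have h4 := four_le h
    rw [hq] at h1 h4 ⊢
    simp only [Nat.add_sub_cancel, Fin.val_zero, Fin.val_one, pow_zero, pow_one] at h1 ⊢
    refine Nat.eq_of_mul_eq_mul_left (show 0 < q by omega) (h1.trans ?_)
    rw [show (q + 1) ^ 2 - 1 = q * (q + 2) by rw [Nat.sub_eq_iff_eq_add (Nat.one_le_pow _ _ (by omega))]; ring,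
      show (q + 1) ^ 2 - (q + 1) = (q + 1) * q by rw [Nat.sub_eq_iff_eq_add (Nat.le_self_pow two_ne_zero _)]; ring]
    ring
  have hcρ : Nat.card ρ.range = Nat.card G := (Nat.card_congr (MonoidHom.ofInjective hρinj).toEquiv).symm
  have hcσ : Nat.card σ.range ≤ Nat.card G :=
    hSL ▸ Nat.card_le_card_of_surjective σ.rangeRestrict σ.rangeRestrict_surjective
  have heq : ρ.range = σ.range := Subgroup.eq_of_le_of_card_ge hle (hcρ ▸ hcσ)
  have hσinj : Function.Injective σ := by
    have := (σ.rangeRestrict_surjective.bijective_of_nat_card_le (by rw [← heq, hcρ, hSL])).1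
    intro A B e
    exact this (Subtype.ext e)
  have hcen : Subgroup.center (Matrix.SpecialLinearGroup (Fin 2) F) = ⊥ := by
    refine Subgroup.eq_bot_of_card_eq _ ?_
    rw [Cfsg.Lib.Classical.LinearOrders.card_center_sl (by norm_num)]
    rcases (Nat.dvd_prime Nat.prime_two).1 (Nat.gcd_dvd_left 2 (Fintype.card F - 1)) with h1 | h1
    · exact h1
    · exfalso
      have h3 := Nat.gcd_dvd_right 2 (Fintype.card F - 1)
      rw [h1] at h3
      have h4 : Fintype.card F % 2 = 0 := FiniteField.even_card_iff_char_two.1 hchar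
      have := Fintype.one_lt_card (α := F)
      omega
  exact ⟨((MonoidHom.ofInjective hρinj).trans (MulEquiv.subgroupCongr heq)).trans
    ((MonoidHom.ofInjective hσinj).symm.trans
      (((QuotientGroup.quotientMulEquivOfEq hcen).trans QuotientGroup.quotientBot).symm))⟩

end Cfsg.Lib.TwoFus.ElemCent
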