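import Mathlib
import Cfsg.Agent.Lib.ZStar.KleinFusion
import Cfsg.Agent.Lib.Invol.Isolated

/-!
The number of classes of involutions for a Klein four Sylow 2-subgroup.
-/

set_option autoImplicit false

namespace Cfsg.Lib.TwoFus

variable {G : Type*} [Group G] [Finite G]

theorem klein_card_classes_of_complement (P : Sylow 2 G) (hP : IsKleinFour (P : Subgroup G))
    (N : Subgroup G) [hN : N.Normal] (hidx : N.index = 4) :
    Nat.card {C : ConjClasses G // ∃ t : G, orderOf t = 2 ∧ ConjClasses.mk t = C} = 3 := by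
  have : Fact (Nat.Prime 2) := ⟨Nat.prime_two⟩
  have hcard : Nat.card (P : Subgroup G) = 4 := hP.card_four
  have hNP : N ⊓ (P : Subgroup G) = ⊥ := by
    have h1 := Subgroup.card_mul_index N
    have h2 := Subgroup.card_mul_index (P : Subgroup G)
    rw [hidx] at h1
    rw [hcard] at h2
    have hNc : Nat.card N = (P : Subgroup G).index := by omega
    refine Subgroup.eq_bot_of_card_le _ (Nat.le_of_dvd one_pos ?_)
    have hg : Nat.gcd (Nat.card N) (Nat.card (P : Subgroup G)) = 1 := by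
      rw [hNc, hcard]
      refine Nat.Coprime.symm ?_
      exact Nat.Coprime.pow_left 2 ((Nat.prime_two.coprime_iff_not_dvd).2 P.not_dvd_index)
    rw [← hg]
    exact Nat.dvd_gcd (Subgroup.card_dvd_of_le inf_le_left) (Subgroup.card_dvd_of_le inf_le_right)
  have hQc : ∀ a b : G ⧸ N, a * b = b * a := by
    have h4 : Nat.card (G ⧸ N) = 2 ^ 2 := by rw [← Subgroup.index_eq_card, hidx]; norm_num
    exact (IsPGroup.isMulCommutative_of_card_eq_prime_sq h4).is_comm.comm
  set X := {x : ↥(P : Subgroup G) // x ≠ 1}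
  let f : X → {C : ConjClasses G // ∃ t : G, orderOf t = 2 ∧ ConjClasses.mk t = C} := fun x =>
    ⟨ConjClasses.mk (x.1 : G), x.1,
      Cfsg.Lib.ZStar.klein_orderOf hP x.1.2 fun e => x.2 (Subtype.ext e), rfl⟩
  have hf : Function.Bijective f := by
    refine ⟨fun x y h => ?_, ?_⟩
    · obtain ⟨g, hg⟩ := isConj_iff.1 (ConjClasses.mk_eq_mk_iff_isConj.1 (congrArg Subtype.val h))
      have h1 : (QuotientGroup.mk (x.1 : G) : G ⧸ N) = QuotientGroup.mk (y.1 : G) := by
        rw [← hg, QuotientGroup.mk_mul, QuotientGroup.mk_mul, hQc (QuotientGroup.mk g),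
          QuotientGroup.mk_inv, mul_inv_cancel_right]
      have h2 : ((x.1 : G))⁻¹ * (y.1 : G) ∈ N ⊓ (P : Subgroup G) :=
        ⟨QuotientGroup.eq.1 h1, (P : Subgroup G).mul_mem ((P : Subgroup G).inv_mem x.1.2) y.1.2⟩
      rw [hNP, Subgroup.mem_bot, inv_mul_eq_one] at h2
      exact Subtype.ext (Subtype.ext h2)
    · rintro ⟨C, t, ht, rfl⟩
      obtain ⟨g, hg⟩ := Cfsg.Lib.Invol.exists_conj_mem_sylow (H := Subgroup.zpowers t)
        (IsPGroup.of_card (n := 1) (by rw [Nat.card_zpowers, ht, pow_one])) P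
      refine ⟨⟨⟨g * t * g⁻¹, hg t (Subgroup.mem_zpowers t)⟩, fun e => ?_⟩, Subtype.ext ?_⟩
      · have e' := congrArg Subtype.val e
        rw [Subgroup.coe_one, conj_eq_one_iff] at e'
        rw [e', orderOf_one] at ht
        omega
      · exact ConjClasses.mk_eq_mk_iff_isConj.2 (isConj_iff.2 ⟨g, rfl⟩).symm
  rw [← Nat.card_eq_of_bijective f hf]
  have := Fintype.ofFinite ↥(P : Subgroup G)
  classical
  rw [Nat.card_eq_fintype_card, Fintype.card_subtype_compl, Fintype.card_subtype_eq,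
    ← Nat.card_eq_fintype_card, hcard]

theorem klein_card_classes_of_not_complement (P : Sylow 2 G) (hP : IsKleinFour (P : Subgroup G))
    (h : ¬ ∃ N : Subgroup G, N.Normal ∧ N.index = 4) :
    Nat.card {C : ConjClasses G // ∃ t : G, orderOf t = 2 ∧ ConjClasses.mk t = C} = 1 := by
  rw [Nat.card_eq_one_iff_exists]
  have h2 : 2 ∣ Nat.card G :=
    ((by rw [hP.card_four]; decide : 2 ∣ Nat.card (P : Subgroup G))).trans
      (Subgroup.card_subgroup_dvd_card _)
  have : Fact (Nat.Prime 2) := ⟨Nat.prime_two⟩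
  obtain ⟨s, hs⟩ := exists_prime_orderOf_dvd_card' 2 h2
  refine ⟨⟨_, s, hs, rfl⟩, ?_⟩
  rintro ⟨C, t, ht, rfl⟩
  exact Subtype.ext (ConjClasses.mk_eq_mk_iff_isConj.2
    (Cfsg.Lib.ZStar.klein_one_class P hP h t s ht hs))

end Cfsg.Lib.TwoFus
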