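import Mathlib
import Cfsg.Agent.Lib.ZStar.UniqueInvolution

/-!
A 2-group with an elementary abelian subgroup of order 8 has a normal four subgroup.
-/

set_option autoImplicit false

namespace Cfsg.Lib.TwoFus

variable {S : Type*} [Group S] [Finite S]

theorem normal_four_of_normal_elementary (hS : IsPGroup 2 S) (W : Subgroup S) [W.Normal]
    (hW : ∀ w ∈ W, w * w = 1) (hW4 : 4 ≤ Nat.card W) :
    ∃ U : Subgroup S, U.Normal ∧ Nat.card U = 4 ∧ U ≤ W := by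
  have : Fact (Nat.Prime 2) := ⟨Nat.prime_two⟩
  have h0 : (⊥ : Subgroup S) < W := bot_lt_iff_ne_bot.2 fun e => by
    rw [e, Subgroup.card_bot] at hW4; omega
  obtain ⟨B₁, b₁, hB₁, -, hB₁W, hc₁, -⟩ := Cfsg.Lib.Transfer.exists_normal_step hS ⊥ W h0
  haveI := hB₁
  rw [Subgroup.card_bot, mul_one] at hc₁
  have h1 : B₁ < W := lt_of_le_of_ne hB₁W fun e => by rw [← e, hc₁] at hW4; omega
  obtain ⟨B₂, b₂, hB₂, -, hB₂W, hc₂, -⟩ := Cfsg.Lib.Transfer.exists_normal_step hS B₁ W h1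
  exact ⟨B₂, hB₂, by rw [hc₂, hc₁], hB₂W⟩

theorem dvd_sub_or_add {k : ℕ} {r : ℤ} (hr : (2 : ℤ) ^ (k + 1) ∣ r ^ 2 - 1) :
    (2 : ℤ) ^ k ∣ r - 1 ∨ (2 : ℤ) ^ k ∣ r + 1 := by
  have hodd : Odd r := by
    rcases Int.even_or_odd r with he | ho
    · exfalso
      have h1 : (2 : ℤ) ∣ r ^ 2 - 1 := (dvd_pow_self (2 : ℤ) k.succ_ne_zero).trans hr
      rw [dvd_sub_right (dvd_pow he.two_dvd two_ne_zero)] at h1
      norm_num at h1
    · exact ho
  obtain ⟨w, rfl⟩ := hodd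
  have h2 : (2 : ℤ) ^ (k + 1) ∣ 2 * (2 * (w * (w + 1))) := by
    have e : (2 * w + 1) ^ 2 - 1 = 2 * (2 * (w * (w + 1))) := by ring
    rwa [e] at hr
  rw [pow_succ'] at h2
  have h3 := (mul_dvd_mul_iff_left (two_ne_zero (α := ℤ))).1 h2
  rcases Int.even_or_odd w with he | ho
  · left
    obtain ⟨v, rfl⟩ := he
    have : IsCoprime ((2 : ℤ) ^ k) (v + v + 1) := IsCoprime.pow_left ⟨-v, 1, by ring⟩
    have h4 : (2 : ℤ) ^ k ∣ 2 * (v + v) := by
      refine this.dvd_of_dvd_mul_right ?_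
      rwa [mul_assoc]
    simpa using h4
  · right
    obtain ⟨v, rfl⟩ := ho
    have : IsCoprime ((2 : ℤ) ^ k) (2 * v + 1) := IsCoprime.pow_left ⟨-v, 1, by ring⟩
    have h4 : (2 : ℤ) ^ k ∣ 2 * (2 * v + 1 + 1) := by
      refine this.dvd_of_dvd_mul_right ?_
      rwa [show 2 * (2 * v + 1 + 1) * (2 * v + 1) = 2 * ((2 * v + 1) * (2 * v + 1 + 1)) by ring]
    rwa [show 2 * (2 * v + 1) + 1 + 1 = 2 * (2 * v + 1 + 1) by ring]

theorem exists_normal_four (hS : IsPGroup 2 S) (E : Subgroup S) (hE : Nat.card E = 8)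
    (hE2 : ∀ e ∈ E, e ^ 2 = 1) :
    ∃ U : Subgroup S, U.Normal ∧ Nat.card U = 4 ∧ ∀ u ∈ U, u ^ 2 = 1 := by
  classical
  have : Fact (Nat.Prime 2) := ⟨Nat.prime_two⟩
  obtain ⟨A, ⟨hAn, hAc⟩, hAmax⟩ := Set.Finite.exists_maximalFor id
    {B : Subgroup S | B.Normal ∧ IsMulCommutative B} (Set.toFinite _)
    ⟨⊥, inferInstance, ⟨⟨fun a b => Subsingleton.elim _ _⟩⟩⟩
  haveI := hAn
  have hself := Cfsg.Lib.Transfer.centralizer_eq_of_maximal_normal_abelian hS A hAc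
    fun B hB hBc hle => le_antisymm (hAmax ⟨hB, hBc⟩ hle) hle
  have hAcomm : ∀ x ∈ A, ∀ y ∈ A, Commute x y := fun x hx y hy =>
    congrArg Subtype.val (hAc.is_comm.comm ⟨x, hx⟩ ⟨y, hy⟩)
  let W : Subgroup S :=
    { carrier := {x | x ∈ A ∧ x * x = 1}
      one_mem' := ⟨one_mem _, one_mul 1⟩
      mul_mem' := fun {x y} hx hy => ⟨mul_mem hx.1 hy.1, by
        rw [show x * y * (x * y) = x * (y * x) * y by group, (hAcomm y hy.1 x hx.1).eq,
          show x * (x * y) * y = (x * x) * (y * y) by group, hx.2, hy.2, one_mul]⟩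
      inv_mem' := fun {x} hx => ⟨inv_mem hx.1, by rw [← mul_inv_rev, hx.2, inv_one]⟩ }
  haveI hWn : W.Normal := ⟨fun x hx s => ⟨hAn.conj_mem x hx.1 s, by
    rw [show s * x * s⁻¹ * (s * x * s⁻¹) = s * (x * x) * s⁻¹ by group, hx.2, mul_one,
      mul_inv_cancel]⟩⟩
  by_cases hW4 : 4 ≤ Nat.card W
  · obtain ⟨U, hUn, hUc, hUW⟩ := normal_four_of_normal_elementary hS W (fun w hw => hw.2) hW4
    exact ⟨U, hUn, hUc, fun u hu => by rw [sq]; exact (hUW hu).2⟩
  -- `A` is cyclic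
  have hW2 : Nat.card W ≤ 2 := by
    obtain ⟨j, hj⟩ := (hS.to_subgroup W).exists_card_eq
    rcases j with _ | _ | j
    · omega
    · omega
    · exfalso
      apply hW4
      rw [hj, pow_succ, pow_succ]
      have := Nat.two_pow_pos j
      omega
  have huniq : ∀ x y : ↥A, orderOf x = 2 → orderOf y = 2 → y ∈ Subgroup.zpowers x := by
    intro x y hx hy
    have hmem : ∀ w : ↥A, orderOf w = 2 → (w : S) ∈ W := fun w hw => ⟨w.2, by
      rw [← sq, ← Subgroup.coe_pow, ← hw, pow_orderOf_eq_one, Subgroup.coe_one]⟩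
    have hle : Subgroup.zpowers (x : S) ≤ W := Subgroup.zpowers_le.2 (hmem x hx)
    have heq := Subgroup.eq_of_le_of_card_ge hle
      (by rw [Nat.card_zpowers, Subgroup.orderOf_coe, hx]; exact hW2)
    obtain ⟨i, hi⟩ := Subgroup.mem_zpowers_iff.1 (heq ▸ hmem y hy)
    exact Subgroup.mem_zpowers_iff.2 ⟨i, Subtype.ext (by rw [Subgroup.coe_zpow]; exact hi)⟩
  obtain ⟨a₀, ha₀⟩ := Cfsg.Lib.ZStar.exists_generator_of_unique (hS.to_subgroup A) huniq ⊤
    ⟨⟨fun u v => Subtype.ext (hAc.is_comm.comm u.1 v.1)⟩⟩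
  set a : S := (a₀ : S) with hadef
  have hAz : A = Subgroup.zpowers a := by
    refine le_antisymm (fun x hx => ?_) (Subgroup.zpowers_le.2 a₀.2)
    obtain ⟨i, hi⟩ := Subgroup.mem_zpowers_iff.1 (ha₀ ▸ Subgroup.mem_top (⟨x, hx⟩ : ↥A))
    exact Subgroup.mem_zpowers_iff.2 ⟨i, by rw [hadef, ← Subgroup.coe_zpow, hi]⟩
  set m := orderOf a with hm
  obtain ⟨k, hk⟩ := hS.exists_orderOf_eq_pow a
  have hmod : ∀ i j : ℤ, a ^ i = a ^ j ↔ (m : ℤ) ∣ i - j := fun i j => by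
    rw [zpow_eq_zpow_iff_modEq, Int.modEq_comm, Int.modEq_iff_dvd]
  have hfix : ∀ g : S, g * a * g⁻¹ = a → g ∈ A := by
    intro g hg
    rw [← hself, hAz, Subgroup.mem_centralizer_iff]
    intro b hb
    obtain ⟨i, rfl⟩ := Subgroup.mem_zpowers_iff.mp hb
    exact ((Commute.zpow_right (show Commute g a from mul_inv_eq_iff_eq_mul.mp hg) i)).eq.symm
  have hexp : ∀ g : S, ∃ r : ℤ, g * a * g⁻¹ = a ^ r := fun g => by
    obtain ⟨r, hr⟩ := Subgroup.mem_zpowers_iff.mp (hAz ▸ hAn.conj_mem a a₀.2 g)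
    exact ⟨r, hr.symm⟩
  have hmul : ∀ {g h : S} {r s : ℤ}, g * a * g⁻¹ = a ^ r → h * a * h⁻¹ = a ^ s →
      (g * h) * a * (g * h)⁻¹ = a ^ (r * s) := by
    intro g h r s hg hh
    calc (g * h) * a * (g * h)⁻¹ = g * (h * a * h⁻¹) * g⁻¹ := by group
      _ = a ^ (r * s) := by rw [hh, ← conj_zpow, hg, ← zpow_mul]
  -- three elements of `E` acting differently
  have hEA : Nat.card ↥(E ⊓ A) ≤ 2 := by
    refine (Nat.le_of_dvd Nat.card_pos (Subgroup.card_dvd_of_le ?_)).trans hW2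
    exact fun x hx => ⟨hx.2, by rw [← sq]; exact hE2 x hx.1⟩
  obtain ⟨e, he, heA⟩ : ∃ e ∈ E, e ∉ A := by
    by_contra h
    push Not at h
    rw [inf_eq_left.2 h] at hEA
    omega
  obtain ⟨f, hf, hfA, hfe⟩ : ∃ f ∈ E, f ∉ A ∧ e * f ∉ A := by
    by_contra h
    push Not at h
    have hle : E ≤ (E ⊓ A) ⊔ Subgroup.zpowers e := by
      intro f hf
      by_cases hfA : f ∈ A
      · exact Subgroup.mem_sup_left ⟨hf, hfA⟩
      · have h1 : e * f ∈ (E ⊓ A) ⊔ Subgroup.zpowers e :=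
          Subgroup.mem_sup_left ⟨mul_mem he hf, h f hf hfA⟩
        have := mul_mem (inv_mem (Subgroup.mem_sup_right (S := E ⊓ A)
          (Subgroup.mem_zpowers e))) h1
        rwa [inv_mul_cancel_left] at this
    have hc := (Nat.le_of_dvd Nat.card_pos (Subgroup.card_dvd_of_le hle))
    have hnorm : Subgroup.zpowers e ≤ Subgroup.normalizer ((E ⊓ A : Subgroup S) : Set S) := by
      refine Subgroup.zpowers_le.2 (Subgroup.mem_normalizer_iff.2 fun y => ⟨fun hy =>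
        ⟨E.mul_mem (E.mul_mem he hy.1) (E.inv_mem he), hAn.conj_mem y hy.2 e⟩, fun hy => ?_⟩)
      refine ⟨?_, ?_⟩
      · have := E.mul_mem (E.mul_mem (E.inv_mem he) hy.1) he
        rwa [show e⁻¹ * (e * y * e⁻¹) * e = y by group] at this
      · have := hAn.conj_mem _ hy.2 e⁻¹
        rwa [show e⁻¹ * (e * y * e⁻¹) * e⁻¹⁻¹ = y by group] at this
    have hc2 : Nat.card ↥((E ⊓ A) ⊔ Subgroup.zpowers e) ≤
        Nat.card ↥(E ⊓ A) * Nat.card ↥(Subgroup.zpowers e) := by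
      rw [← Nat.card_prod]
      refine Nat.card_le_card_of_surjective (fun q : ↥(E ⊓ A) × ↥(Subgroup.zpowers e) =>
        (⟨(q.1 : S) * (q.2 : S), mul_mem (Subgroup.mem_sup_left q.1.2)
          (Subgroup.mem_sup_right q.2.2)⟩ : ↥((E ⊓ A) ⊔ Subgroup.zpowers e))) fun w => ?_
      have hw : (w : S) ∈ (((E ⊓ A) ⊔ Subgroup.zpowers e : Subgroup S) : Set S) := w.2
      rw [Subgroup.coe_mul_of_right_le_normalizer_left _ _ hnorm] at hw
      obtain ⟨u, hu, v, hv, huv⟩ := hw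
      exact ⟨(⟨u, hu⟩, ⟨v, hv⟩), Subtype.ext huv⟩
    have h2 : Nat.card ↥(Subgroup.zpowers e) ≤ 2 := by
      rw [Nat.card_zpowers]
      exact Nat.le_of_dvd two_pos (orderOf_dvd_of_pow_eq_one (hE2 e he))
    have := hc.trans (hc2.trans (Nat.mul_le_mul hEA h2))
    omega
  -- an involution acting as `1 + 2 ^ (k - 1)`
  have hroot : ∀ {g : S} {r : ℤ}, g ∈ E → g * a * g⁻¹ = a ^ r → (m : ℤ) ∣ r ^ 2 - 1 := by
    intro g r hg hr
    have h1 := hmul hr hr
    rw [show g * g = 1 by rw [← sq]; exact hE2 g hg, one_mul, inv_one, mul_one] at h1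
    rw [← hmod, sq, ← h1, zpow_one]
  have hnt : ∀ {g : S} {r : ℤ}, g ∉ A → g * a * g⁻¹ = a ^ r → ¬ (m : ℤ) ∣ r - 1 := by
    intro g r hg hr hd
    exact hg (hfix g (by rw [hr, (hmod r 1).2 hd, zpow_one]))
  have hk0 : k ≠ 0 := by
    rintro rfl
    obtain ⟨r, hr⟩ := hexp e
    refine hnt heA hr ?_
    rw [hm, hk]; simp
  obtain ⟨l, hl⟩ := Nat.exists_eq_succ_of_ne_zero hk0
  rw [hl] at hk
  have hmk : (m : ℤ) = 2 ^ (l + 1) := by rw [hm, hk]; push_cast; rfl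
  have hclass : ∀ {g : S} {r : ℤ}, g ∈ E → g ∉ A → g * a * g⁻¹ = a ^ r →
      (m : ℤ) ∣ r - (1 + 2 ^ l) ∨ (m : ℤ) ∣ r + 1 ∨ (m : ℤ) ∣ r + 1 + 2 ^ l := by
    intro g r hg hgA hr
    have h1 := hroot hg hr
    have h0 := hnt hgA hr
    rw [hmk] at h1 h0 ⊢
    rcases dvd_sub_or_add h1 with ⟨c, hc⟩ | ⟨c, hc⟩
    · rcases Int.even_or_odd c with ⟨d, rfl⟩ | ⟨d, rfl⟩
      · exact absurd ⟨d, by rw [hc, pow_succ]; ring⟩ h0
      · exact Or.inl ⟨d, by rw [show r - (1 + 2 ^ l) = (r - 1) - 2 ^ l by ring, hc, pow_succ]; ring⟩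
    · rcases Int.even_or_odd c with ⟨d, rfl⟩ | ⟨d, rfl⟩
      · exact Or.inr (Or.inl ⟨d, by rw [hc, pow_succ]; ring⟩)
      · exact Or.inr (Or.inr ⟨d + 1, by
          rw [show r + 1 + 2 ^ l = (r + 1) + 2 ^ l by ring, hc, pow_succ]; ring⟩)
  obtain ⟨r, hr⟩ := hexp e
  obtain ⟨s, hs⟩ := hexp f
  have hrs := hmul hr hs
  have hefA : e * f ∉ A := hfe
  have hef : e * f ∈ E := mul_mem he hf
  have hcong : ∀ x y u v : ℤ, (m : ℤ) ∣ x - u → (m : ℤ) ∣ y - v → (m : ℤ) ∣ x * y - u * v := by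
    intro x y u v hx hy
    rw [show x * y - u * v = x * (y - v) + v * (x - u) by ring]
    exact dvd_add (hy.mul_left _) (hx.mul_left _)
  have hl1 : 2 ≤ l := by
    by_contra hlt
    have hm4 : (m : ℤ) = 2 ∨ (m : ℤ) = 4 := by
      rw [hmk]
      interval_cases l <;> norm_num
    -- all nontrivial actions are inversion
    have hinv : ∀ {g : S} {t : ℤ}, g ∈ E → g ∉ A → g * a * g⁻¹ = a ^ t → (m : ℤ) ∣ t + 1 := by
      intro g t hg hgA ht
      have h1 := hroot hg ht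
      have h0 := hnt hgA ht
      rcases hm4 with h2 | h2 <;> rw [h2] at h1 h0 ⊢
      · exfalso
        apply h0
        rw [show t ^ 2 - 1 = (t - 1) * (t + 1) by ring] at h1
        rcases Int.prime_two.dvd_or_dvd h1 with h | h
        · exact h
        · omega
      · rcases Int.even_or_odd t with ⟨w, rfl⟩ | ⟨w, rfl⟩
        · exfalso
          rw [show (w + w) ^ 2 - 1 = 4 * (w * w) - 1 by ring] at h1
          omega
        · omega
    have h2 := hcong r s (-1) (-1) (by simpa using hinv he heA hr) (by simpa using hinv hf hfA hs)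
    exact hnt hefA hrs (by simpa using h2)
  obtain ⟨g, hg, hgA, hga⟩ : ∃ g, g ∈ E ∧ g ∉ A ∧ g * a * g⁻¹ = a ^ (1 + (2 : ℤ) ^ l) := by
    rcases hclass he heA hr with h | h
    · exact ⟨e, he, heA, hr.trans ((hmod _ _).2 h)⟩
    rcases hclass hf hfA hs with h' | h'
    · exact ⟨f, hf, hfA, hs.trans ((hmod _ _).2 h')⟩
    -- both act as `-1` or `-1 - 2 ^ l`
    rcases h with h | h <;> rcases h' with h' | h'
    · exact absurd (by simpa using hcong r s (-1) (-1) (by simpa using h) (by simpa using h'))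
        (hnt hefA hrs)
    · refine ⟨e * f, hef, hefA, hrs.trans ((hmod _ _).2 ?_)⟩
      have h1 := hcong r s (-1) (-1 - 2 ^ l) (by simpa using h)
        (by rwa [show s - (-1 - 2 ^ l) = s + 1 + 2 ^ l by ring])
      rwa [show (-1 : ℤ) * (-1 - 2 ^ l) = 1 + 2 ^ l by ring] at h1
    · refine ⟨e * f, hef, hefA, hrs.trans ((hmod _ _).2 ?_)⟩
      have h1 := hcong r s (-1 - 2 ^ l) (-1)
        (by rwa [show r - (-1 - 2 ^ l) = r + 1 + 2 ^ l by ring]) (by simpa using h')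
      rwa [show (-1 - (2 : ℤ) ^ l) * (-1) = 1 + 2 ^ l by ring] at h1
    · exfalso
      refine hnt hefA hrs ?_
      have h1 := hcong r s (-1 - 2 ^ l) (-1 - 2 ^ l)
        (by rwa [show r - (-1 - 2 ^ l) = r + 1 + 2 ^ l by ring])
        (by rwa [show s - (-1 - 2 ^ l) = s + 1 + 2 ^ l by ring])
      have h2 : (m : ℤ) ∣ (-1 - 2 ^ l) * (-1 - 2 ^ l) - 1 := by
        obtain ⟨v, rfl⟩ : ∃ v, l = v + 1 := ⟨l - 1, by omega⟩
        exact ⟨1 + 2 ^ v, by rw [hmk, pow_succ, pow_succ]; ring⟩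
      rw [show r * s - 1 = (r * s - (-1 - 2 ^ l) * (-1 - 2 ^ l)) +
        ((-1 - 2 ^ l) * (-1 - 2 ^ l) - 1) by ring]
      exact dvd_add h1 h2
  -- the four group
  set z := a ^ (2 ^ l : ℤ) with hz
  have hgg : g * g = 1 := by rw [← sq]; exact hE2 g hg
  have hgz : g * z * g⁻¹ = z := by
    rw [hz, ← conj_zpow, hga, ← zpow_mul, hmod, hmk]
    obtain ⟨v, rfl⟩ : ∃ v, l = v + 1 := ⟨l - 1, by omega⟩
    exact ⟨2 ^ v, by rw [pow_succ, pow_succ]; ring⟩
  have hzz : z * z = 1 := by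
    rw [hz, ← zpow_add, ← zpow_zero a, hmod, hmk]
    exact ⟨1, by rw [pow_succ]; ring⟩
  have hzg : Commute g z := mul_inv_eq_iff_eq_mul.1 hgz
  have hzA : z ∈ A := hAz ▸ zpow_mem (Subgroup.mem_zpowers a) _
  have hz1 : z ≠ 1 := by
    rw [hz, ← zpow_zero a, Ne, hmod, hmk, sub_zero]
    rintro ⟨c, hc⟩
    have h2 : (1 : ℤ) = 2 * c := by
      apply mul_left_cancel₀ (pow_ne_zero l (two_ne_zero (α := ℤ)))
      rw [mul_one]; linear_combination hc
    omega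
  set Z := Subgroup.zpowers z
  set U := Z ⊔ Subgroup.zpowers g with hU
  have hcommU : Subgroup.zpowers g ≤ Subgroup.normalizer (Z : Set S) := Subgroup.zpowers_le.2
    (Subgroup.centralizer_le_normalizer _ (Subgroup.mem_centralizer_iff.2 fun x hx => by
      obtain ⟨i, rfl⟩ := Subgroup.mem_zpowers_iff.1 hx
      exact (hzg.zpow_right i).eq.symm))
  have hUmem : ∀ u ∈ U, u = 1 ∨ u = z ∨ u = g ∨ u = z * g := by
    intro u hu
    have hu' : u ∈ ((Z ⊔ Subgroup.zpowers g : Subgroup S) : Set S) := hu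
    rw [Subgroup.coe_mul_of_right_le_normalizer_left _ _ hcommU] at hu'
    obtain ⟨p, hp, q, hq, rfl⟩ := hu'
    have hcase : ∀ {w x : S}, w * w = 1 → x ∈ Subgroup.zpowers w → x = 1 ∨ x = w := by
      intro w x hw hx
      obtain ⟨i, rfl⟩ := Subgroup.mem_zpowers_iff.1 hx
      rcases Int.even_or_odd i with ⟨j, rfl⟩ | ⟨j, rfl⟩
      · left; rw [← two_mul, zpow_mul, zpow_two, hw, one_zpow]
      · right; rw [zpow_add, zpow_mul, zpow_two, hw, one_zpow, one_mul, zpow_one]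
    rcases hcase hzz hp with rfl | rfl <;> rcases hcase hgg hq with rfl | rfl <;> simp
  have hUsq : ∀ u ∈ U, u ^ 2 = 1 := by
    intro u hu
    rw [sq]
    rcases hUmem u hu with rfl | rfl | rfl | rfl
    · exact one_mul 1
    · exact hzz
    · exact hgg
    · calc z * g * (z * g) = z * (g * z) * g := by group
        _ = z * (z * g) * g := by rw [hzg.eq]
        _ = (z * z) * (g * g) := by group
        _ = 1 := by rw [hzz, hgg, one_mul]
  refine ⟨U, ⟨fun u hu s => ?_⟩, ?_, hUsq⟩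
  · have hsg : s * g * s⁻¹ ∈ U := by
      obtain ⟨t, ht⟩ := hexp s⁻¹
      obtain ⟨t', ht'⟩ := hexp s
      have h1 : (g⁻¹ * (s * g * s⁻¹)) * a * (g⁻¹ * (s * g * s⁻¹))⁻¹ = a := by
        have hginv : g⁻¹ = g := inv_eq_of_mul_eq_one_right hgg
        rw [hginv]
        have h2 := hmul hga (hmul (hmul ht' hga) ht)
        rw [show g * (s * g * s⁻¹) = g * (s * g * s⁻¹) from rfl] at h2
        have h3 := hmul ht' ht
        rw [mul_inv_cancel, one_mul, inv_one, mul_one] at h3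
        rw [h2, eq_comm]
        conv_lhs => rw [← zpow_one a]
        rw [hmod]
        have h4 : (m : ℤ) ∣ 1 - t' * t := by
          rw [← hmod, zpow_one]; exact h3
        have h5 : (m : ℤ) ∣ 1 - (1 + 2 ^ l) * (1 + 2 ^ l) := by
          obtain ⟨v, rfl⟩ : ∃ v, l = v + 1 := ⟨l - 1, by omega⟩
          exact ⟨-(1 + 2 ^ v), by rw [hmk, pow_succ, pow_succ]; ring⟩
        rw [show 1 - (1 + 2 ^ l) * (t' * (1 + 2 ^ l) * t) =
          (1 - (1 + 2 ^ l) * (1 + 2 ^ l)) * (t' * t) + (1 - t' * t) by ring]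
        exact dvd_add (h5.mul_right _) h4
      obtain ⟨i, hi⟩ := Subgroup.mem_zpowers_iff.1 (hAz ▸ hfix _ h1)
      have hsge : s * g * s⁻¹ = g * a ^ i := by rw [hi]; group
      have hsq : (g * a ^ i) * (g * a ^ i) = 1 := by
        rw [← hsge, show s * g * s⁻¹ * (s * g * s⁻¹) = s * (g * g) * s⁻¹ by group, hgg, mul_one,
          mul_inv_cancel]
      rw [show g * a ^ i * (g * a ^ i) = (g * a ^ i * g⁻¹) * (g * g) * a ^ i by group, hgg,
        mul_one, ← conj_zpow, hga, ← zpow_mul, ← zpow_add, ← zpow_zero a, hmod, hmk,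
        sub_zero] at hsq
      obtain ⟨v, rfl⟩ : ∃ v, l = v + 1 := ⟨l - 1, by omega⟩
      have hco : IsCoprime ((2 : ℤ) ^ (v + 1)) (1 + 2 ^ v) := by
        refine IsCoprime.pow_left ?_
        obtain ⟨w, rfl⟩ : ∃ w, v = w + 1 := ⟨v - 1, by omega⟩
        exact ⟨-(2 : ℤ) ^ w, 1, by rw [pow_succ]; ring⟩
      have hsq' : (2 : ℤ) ^ (v + 1) ∣ i * (1 + 2 ^ v) := by
        rw [pow_succ _ (v + 1), show (1 + 2 ^ (v + 1)) * i + i = (i * (1 + 2 ^ v)) * 2 by
          rw [pow_succ]; ring] at hsq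
        exact (mul_dvd_mul_iff_right (two_ne_zero (α := ℤ))).1 hsq
      obtain ⟨c, rfl⟩ := hco.dvd_of_dvd_mul_right hsq'
      rw [hsge, zpow_mul, ← hz]
      exact mul_mem (Subgroup.mem_sup_right (Subgroup.mem_zpowers g))
        (Subgroup.mem_sup_left (zpow_mem (Subgroup.mem_zpowers z) c))
    have hsz : s * z * s⁻¹ ∈ U := by
      have hw : s * z * s⁻¹ ∈ W := hWn.conj_mem z ⟨hzA, hzz⟩ s
      have hZW : Z = W := Subgroup.eq_of_le_of_card_ge (Subgroup.zpowers_le.2 ⟨hzA, hzz⟩)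
        (by rw [Nat.card_zpowers, orderOf_eq_prime (by rw [sq]; exact hzz) hz1]; exact hW2)
      exact Subgroup.mem_sup_left (hZW ▸ hw)
    rcases hUmem u hu with rfl | rfl | rfl | rfl
    · simp
    · exact hsz
    · exact hsg
    · rw [show s * (z * g) * s⁻¹ = (s * z * s⁻¹) * (s * g * s⁻¹) by group]
      exact mul_mem hsz hsg
  · have hdisj : Z ⊓ Subgroup.zpowers g = ⊥ := by
      refine le_bot_iff.1 fun x hx => Subgroup.mem_bot.2 ?_
      obtain ⟨i, hi⟩ := Subgroup.mem_zpowers_iff.1 hx.2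
      rcases Int.even_or_odd i with ⟨j, rfl⟩ | ⟨j, rfl⟩
      · rw [← hi, ← two_mul, zpow_mul, zpow_two, hgg, one_zpow]
      · exfalso
        rw [zpow_add, zpow_mul, zpow_two, hgg, one_zpow, one_mul, zpow_one] at hi
        exact hgA (hi ▸ (Subgroup.zpowers_le.2 hzA) hx.1)
    have hcard : Nat.card ↥U = Nat.card ↥Z * Nat.card ↥(Subgroup.zpowers g) := by
      rw [← Nat.card_prod]
      refine (Nat.card_eq_of_bijective (fun q : ↥Z × ↥(Subgroup.zpowers g) =>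
        (⟨(q.1 : S) * (q.2 : S), mul_mem (Subgroup.mem_sup_left q.1.2)
          (Subgroup.mem_sup_right q.2.2)⟩ : ↥U)) ⟨?_, ?_⟩).symm
      · intro q q' h
        exact Subgroup.mul_injective_of_disjoint (disjoint_iff.2 hdisj) (congrArg Subtype.val h)
      · intro w
        have hw : (w : S) ∈ ((Z ⊔ Subgroup.zpowers g : Subgroup S) : Set S) := w.2
        rw [Subgroup.coe_mul_of_right_le_normalizer_left _ _ hcommU] at hw
        obtain ⟨u, hu, v, hv, huv⟩ := hw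
        exact ⟨(⟨u, hu⟩, ⟨v, hv⟩), Subtype.ext huv⟩
    rw [hcard, Nat.card_zpowers, Nat.card_zpowers, orderOf_eq_prime (by rw [sq]; exact hzz) hz1,
      orderOf_eq_prime (by rw [sq]; exact hgg) fun e => hgA (by rw [e]; exact one_mem _)]

end Cfsg.Lib.TwoFus
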