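import Mathlib

/-!
Trivial-intersection families of `p`-subgroups: a member normalizing another one is normalized by it.
-/

set_option autoImplicit false

namespace Cfsg.Lib.TwoFus

variable {G : Type*} [Group G] [Finite G] {p : ℕ} [Fact p.Prime]

theorem commute_of_normalize_of_disjoint {A B : Subgroup G} (h : A ⊓ B = ⊥) {a b : G} (ha : a ∈ A)
    (hb : b ∈ B) (haB : a ∈ Subgroup.normalizer (B : Set G))
    (hbA : b ∈ Subgroup.normalizer (A : Set G)) : Commute a b := by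
  have h1 : a * b * a⁻¹ * b⁻¹ ∈ A ⊓ B := by
    refine ⟨?_, ?_⟩
    · have h2 := (Subgroup.mem_normalizer_iff.1 hbA a⁻¹).1 (A.inv_mem ha)
      simpa [mul_assoc] using A.mul_mem ha h2
    · exact B.mul_mem ((Subgroup.mem_normalizer_iff.1 haB b).1 hb) (B.inv_mem hb)
  rw [h, Subgroup.mem_bot] at h1
  exact commutatorElement_eq_one_iff_mul_comm.1 (by simpa [commutatorElement_def] using h1)

/-- If `B` normalizes `A`, `|A| ≤ |B|`, and conjugates of `B` by `A` meet `B` in `⊥` or equal it,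
then `A` normalizes `B`. -/
theorem le_normalizer_of_ti {A B : Subgroup G} (hA : IsPGroup p ↥A) (hB : IsPGroup p ↥B)
    (hcard : Nat.card ↥A ≤ Nat.card ↥B) (hAB : A ⊓ B = ⊥)
    (hBA : B ≤ Subgroup.normalizer (A : Set G))
    (hti : ∀ a ∈ A, B.map (MulAut.conj a).toMonoidHom = B ∨
      B.map (MulAut.conj a).toMonoidHom ⊓ B = ⊥) :
    A ≤ Subgroup.normalizer (B : Set G) := by
  by_contra hn
  set P := A ⊔ B with hP
  have hPp : IsPGroup p ↥P := IsPGroup.to_sup_of_normal_left' hA hB hBA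
  have hPeq : ∀ x ∈ P, ∃ a ∈ A, ∃ b ∈ B, x = a * b := by
    intro x hx
    have hx' : x ∈ ((A ⊔ B : Subgroup G) : Set G) := hx
    rw [Subgroup.coe_mul_of_right_le_normalizer_left A B hBA] at hx'
    obtain ⟨a, ha, b, hb, rfl⟩ := hx'
    exact ⟨a, ha, b, hb, rfl⟩
  set W := Subgroup.normalizer (B : Set G) ⊓ P with hW
  have hWlt : W.subgroupOf P < ⊤ := lt_top_iff_ne_top.2 fun e =>
    hn ((le_sup_left.trans (Subgroup.subgroupOf_eq_top.1 e)).trans inf_le_left)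
  have : Group.IsNilpotent ↥P := hPp.isNilpotent
  obtain ⟨-, x, hx, hxW⟩ := SetLike.lt_iff_le_and_exists.1
    (Group.normalizerCondition_of_isNilpotent (G := ↥P) _ hWlt)
  obtain ⟨a, ha, b, hb, hxab⟩ := hPeq x x.2
  have hbW : b ∈ W := ⟨Subgroup.le_normalizer hb, Subgroup.mem_sup_right hb⟩
  have haW : a ∉ Subgroup.normalizer (B : Set G) := fun h => hxW (Subgroup.mem_subgroupOf.2 (by
    rw [hxab]
    exact W.mul_mem ⟨h, Subgroup.mem_sup_left ha⟩ hbW))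
  have hconj : ∀ c ∈ B, a * c * a⁻¹ ∈ W := by
    intro c hc
    have hcP : c ∈ P := Subgroup.mem_sup_right hc
    have hd : b⁻¹ * c * b ∈ B := B.mul_mem (B.mul_mem (B.inv_mem hb) hc) hb
    have h1 := (Subgroup.mem_normalizer_iff.1 hx ⟨b⁻¹ * c * b, Subgroup.mem_sup_right hd⟩).1
      (Subgroup.mem_subgroupOf.2 ⟨Subgroup.le_normalizer hd, Subgroup.mem_sup_right hd⟩)
    rw [Subgroup.mem_subgroupOf] at h1
    have e : a * c * a⁻¹ = (x : G) * (b⁻¹ * c * b) * (x : G)⁻¹ := by rw [hxab]; group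
    rw [e]
    exact h1
  have hdisj : B.map (MulAut.conj a).toMonoidHom ⊓ B = ⊥ := by
    refine (hti a ha).resolve_left fun e => haW ?_
    refine Subgroup.mem_normalizer_iff.2 fun y => ⟨fun hy => e ▸ ⟨y, hy, rfl⟩, fun hy => ?_⟩
    rw [← e] at hy
    obtain ⟨z, hz, hze⟩ := hy
    exact (MulAut.conj a).injective hze ▸ hz
  -- two disjoint conjugates inside `W`
  have h1 : Nat.card ↥B * Nat.card ↥B ≤ Nat.card ↥W := by
    rw [← Nat.card_prod]
    refine Nat.card_le_card_of_injective (fun q : ↥B × ↥B =>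
      (⟨(q.1 : G) * (a * (q.2 : G) * a⁻¹), W.mul_mem ⟨Subgroup.le_normalizer q.1.2,
        Subgroup.mem_sup_right q.1.2⟩ (hconj _ q.2.2)⟩ : ↥W)) fun q r h => ?_
    have h' : (q.1 : G) * (a * (q.2 : G) * a⁻¹) = (r.1 : G) * (a * (r.2 : G) * a⁻¹) :=
      congrArg Subtype.val h
    have h2 : (r.1 : G)⁻¹ * (q.1 : G) = a * ((r.2 : G) * (q.2 : G)⁻¹) * a⁻¹ := by
      calc (r.1 : G)⁻¹ * (q.1 : G)
          = (r.1 : G)⁻¹ * ((q.1 : G) * (a * (q.2 : G) * a⁻¹)) * (a * (q.2 : G) * a⁻¹)⁻¹ := by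
            group
        _ = (r.1 : G)⁻¹ * ((r.1 : G) * (a * (r.2 : G) * a⁻¹)) * (a * (q.2 : G) * a⁻¹)⁻¹ := by
            rw [h']
        _ = _ := by group
    have h3 : (r.1 : G)⁻¹ * (q.1 : G) ∈ B.map (MulAut.conj a).toMonoidHom ⊓ B :=
      ⟨h2 ▸ ⟨_, B.mul_mem r.2.2 (B.inv_mem q.2.2), rfl⟩, B.mul_mem (B.inv_mem r.1.2) q.1.2⟩
    rw [hdisj, Subgroup.mem_bot] at h3
    have h4 : (r.1 : G) = (q.1 : G) := inv_mul_eq_one.1 h3
    rw [h4] at h'
    exact Prod.ext (Subtype.ext h4.symm) (Subtype.ext (by simpa using h'))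
  set C := A ⊓ Subgroup.normalizer (B : Set G) with hC
  have h5 : Nat.card ↥W ≤ Nat.card ↥C * Nat.card ↥B := by
    rw [← Nat.card_prod]
    refine Nat.card_le_card_of_surjective (fun q : ↥C × ↥B => (⟨(q.1 : G) * (q.2 : G),
      W.mul_mem ⟨q.1.2.2, Subgroup.mem_sup_left q.1.2.1⟩
        ⟨Subgroup.le_normalizer q.2.2, Subgroup.mem_sup_right q.2.2⟩⟩ : ↥W)) fun w => ?_
    obtain ⟨a', ha', b', hb', hw⟩ := hPeq w w.2.2
    refine ⟨(⟨a', ha', ?_⟩, ⟨b', hb'⟩), Subtype.ext hw.symm⟩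
    have := (Subgroup.normalizer (B : Set G)).mul_mem w.2.1
      (Subgroup.le_normalizer (B.inv_mem hb'))
    rwa [hw, mul_inv_cancel_right] at this
  have h6 : Nat.card ↥B ≤ Nat.card ↥C :=
    Nat.le_of_mul_le_mul_right (h1.trans h5) Nat.card_pos
  have h7 : C = A := Subgroup.eq_of_le_of_card_ge inf_le_left (hcard.trans h6)
  exact hn (h7 ▸ inf_le_right)

end Cfsg.Lib.TwoFus
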